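import Cfsg.Agent.Lib.LocalAlg.OAzu

/-!
# The decomposition matrix: projective characters vanish off the regular classes

The characters of the projective indecomposable modules vanish on the `p`-singular elements, span the class
functions supported on the `p`-regular elements, and the decomposition matrix has an integral left inverse.
-/

set_option autoImplicit false
set_option linter.unusedSectionVars false
set_option linter.unusedVariables false

namespace Cfsg.Agent.Lib.LocalAlg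

open Cfsg Cfsg.Agent.Lib.Char Cfsg.Agent.Lib.Blocks Cfsg.Agent.Lib.H8Group Finset Module MonoidAlgebra
open scoped ComplexConjugate

universe u

/-- An injective integral map with saturated image has a left inverse. -/
theorem exists_left_inverse_of_saturated {ι κ : Type*} [Fintype ι] [Fintype κ] [DecidableEq ι] [DecidableEq κ]
    (D : κ → ι → ℤ) (hinj : ∀ c : ι → ℤ, (∀ χ, ∑ j, c j * D χ j = 0) → c = 0)
    (hsat : ∀ (n : ℤ) (x : κ → ℤ) (c : ι → ℤ), n ≠ 0 → (∀ χ, n * x χ = ∑ j, c j * D χ j) →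
      ∃ c' : ι → ℤ, ∀ χ, x χ = ∑ j, c' j * D χ j) :
    ∃ A : ι → κ → ℤ, ∀ k j, ∑ χ, A k χ * D χ j = if k = j then 1 else 0 := by
  classical
  let f : (ι → ℤ) →ₗ[ℤ] (κ → ℤ) := (Matrix.of D).mulVecLin
  have hf : ∀ c χ, f c χ = ∑ j, c j * D χ j := by
    intro c χ
    simp only [f, Matrix.mulVecLin_apply, Matrix.mulVec, dotProduct, Matrix.of_apply]
    exact Finset.sum_congr rfl fun j _ => mul_comm _ _
  have hfi : Function.Injective f := by
    rw [← LinearMap.ker_eq_bot, LinearMap.ker_eq_bot']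
    intro c hc
    apply hinj
    intro χ
    rw [← hf, hc]
    rfl
  set L := LinearMap.range f with hL
  haveI : Module.IsTorsionFree ℤ ((κ → ℤ) ⧸ L) := by
    apply Module.IsTorsionFree.of_smul_eq_zero
    intro n q hq
    by_cases hn : n = 0
    · exact Or.inl hn
    right
    obtain ⟨x, rfl⟩ := Submodule.Quotient.mk_surjective _ q
    rw [← Submodule.Quotient.mk_smul, Submodule.Quotient.mk_eq_zero] at hq
    obtain ⟨c, hc⟩ := hq
    obtain ⟨c', hc'⟩ := hsat n x c hn (fun χ => by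
      rw [← hf, hc]
      simp)
    rw [Submodule.Quotient.mk_eq_zero]
    refine ⟨c', ?_⟩
    funext χ
    rw [hf, hc']
  haveI : Module.Free ℤ ((κ → ℤ) ⧸ L) := Module.free_of_finite_type_torsion_free'
  obtain ⟨s, hs⟩ := Module.projective_lifting_property L.mkQ (LinearMap.id : ((κ → ℤ) ⧸ L) →ₗ[ℤ] _) (Submodule.mkQ_surjective _)
  have hmem : ∀ x, ((LinearMap.id : (κ → ℤ) →ₗ[ℤ] (κ → ℤ)) - s ∘ₗ L.mkQ) x ∈ L := by
    intro x
    rw [← Submodule.Quotient.mk_eq_zero]
    have h1 := LinearMap.congr_fun hs (L.mkQ x)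
    simp only [LinearMap.comp_apply, LinearMap.id_apply] at h1
    simp only [LinearMap.sub_apply, LinearMap.id_apply, LinearMap.comp_apply, Submodule.Quotient.mk_sub]
    have h2 : (Submodule.Quotient.mk (s (L.mkQ x)) : (κ → ℤ) ⧸ L) = L.mkQ (s (L.mkQ x)) := rfl
    rw [h2, h1]
    exact sub_self _
  let e := LinearEquiv.ofInjective f hfi
  let g : (κ → ℤ) →ₗ[ℤ] (ι → ℤ) := e.symm.toLinearMap ∘ₗ (LinearMap.codRestrict L ((LinearMap.id : (κ → ℤ) →ₗ[ℤ] (κ → ℤ)) - s ∘ₗ L.mkQ) hmem)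
  have hg : ∀ c, g (f c) = c := by
    intro c
    have h1 : LinearMap.codRestrict L ((LinearMap.id : (κ → ℤ) →ₗ[ℤ] (κ → ℤ)) - s ∘ₗ L.mkQ) hmem (f c) = e c := by
      apply Subtype.ext
      have h3 : L.mkQ (f c) = 0 := by
        rw [Submodule.mkQ_apply, Submodule.Quotient.mk_eq_zero]
        exact ⟨c, rfl⟩
      simp [h3, e]
    simp only [g, LinearMap.comp_apply, LinearEquiv.coe_coe]
    rw [h1]
    simp
  refine ⟨fun k χ => g (Pi.single χ 1) k, fun k j => ?_⟩
  have h1 : f (Pi.single j 1) = ∑ χ, D χ j • Pi.single χ (1 : ℤ) := by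
    funext χ
    rw [hf, Finset.sum_eq_single j]
    · rw [Finset.sum_apply, Finset.sum_eq_single χ]
      · simp
      · intro b _ hb
        simp [Pi.single_apply, hb.symm]
      · simp
    · intro b _ hb
      simp [Pi.single_apply, hb]
    · simp
  have h2 := congrFun (hg (Pi.single j 1)) k
  rw [h1, map_sum, Finset.sum_apply] at h2
  have h3 : ∑ χ, g (D χ j • Pi.single χ (1 : ℤ)) k = ∑ χ, g (Pi.single χ 1) k * D χ j := by
    refine Finset.sum_congr rfl fun χ _ => ?_
    rw [map_smul, Pi.smul_apply, smul_eq_mul, mul_comm]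
  rw [h3] at h2
  rw [h2]
  simp [Pi.single_apply]

section Frame

variable {M : Ideal AlgInt} [hMp : M.IsPrime] {G : Type u} [Group G] [Fintype G]

namespace OFrame

variable (𝓕 : OFrame M G)

/-- The trace functions of the simple modules. -/
noncomputable def T (k : Fin 𝓕.l) (g : G) : OF M := Matrix.trace (𝓕.pA (single g (1 : OF M)) k)

theorem pA_single_mul (k : Fin 𝓕.l) (g h : G) :
    𝓕.pA (single (g * h) (1 : OF M)) k = 𝓕.pA (single g 1) k * 𝓕.pA (single h 1) k := by
  have h1 : (single (g * h) (1 : OF M) : MonoidAlgebra (OF M) G) = single g 1 * single h 1 := by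
    rw [single_mul_single, mul_one]
  rw [h1, map_mul]
  rfl

theorem pA_single_one (k : Fin 𝓕.l) : 𝓕.pA (single (1 : G) (1 : OF M)) k = 1 := by
  have h1 : (single (1 : G) (1 : OF M) : MonoidAlgebra (OF M) G) = 1 := rfl
  rw [h1, map_one]
  rfl

theorem pA_single_pow (k : Fin 𝓕.l) (g : G) (n : ℕ) :
    𝓕.pA (single (g ^ n) (1 : OF M)) k = (𝓕.pA (single g 1) k) ^ n := by
  induction n with
  | zero => rw [pow_zero, pow_zero, pA_single_one]
  | succ n ih => rw [pow_succ, pow_succ, pA_single_mul, ih]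

theorem T_conj (k : Fin 𝓕.l) (g x : G) : 𝓕.T k (x * g * x⁻¹) = 𝓕.T k g := by
  unfold T
  rw [pA_single_mul, pA_single_mul, Matrix.trace_mul_comm, ← Matrix.mul_assoc, ← pA_single_mul, inv_mul_cancel,
    pA_single_one, Matrix.one_mul]

theorem T_reg {p : ℕ} (hM : IsPModular p M) (k : Fin 𝓕.l) {r s : G} (hc : Commute r s) (e : ℕ) (hs : s ^ (p ^ e) = 1) :
    𝓕.T k (r * s) = 𝓕.T k r := by
  haveI : Fact p.Prime := ⟨hM.1⟩
  haveI : CharP (OF M) p := charP_resF hM
  haveI : Nonempty (Fin (𝓕.m k)) := ⟨⟨0, 𝓕.mpos k⟩⟩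
  unfold T
  rw [pA_single_mul]
  set R := 𝓕.pA (single r (1 : OF M)) k with hR
  set U := 𝓕.pA (single s (1 : OF M)) k with hUdef
  have hRU : Commute R (U - 1) := by
    apply Commute.sub_right _ (Commute.one_right _)
    show R * U = U * R
    rw [hR, hUdef, ← pA_single_mul, ← pA_single_mul, hc.eq]
  have hU : U ^ (p ^ e) = 1 := by
    rw [hUdef, ← pA_single_pow, hs, pA_single_one]
  have hN : IsNilpotent (U - 1) := by
    refine ⟨p ^ e, ?_⟩
    rw [sub_pow_char_pow_of_commute p e (Commute.one_right U), hU, one_pow, sub_self]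
  have h1 : IsNilpotent (R * (U - 1)) := hRU.isNilpotent_mul_left hN
  have h2 := (Matrix.isNilpotent_trace_of_isNilpotent h1).eq_zero
  have h3 : R * U = R + R * (U - 1) := by
    rw [mul_sub, mul_one]
    abel
  rw [h3, Matrix.trace_add, h2, add_zero]

theorem trace_pA_eq_sum_T (a : MonoidAlgebra (OF M) G) (k : Fin 𝓕.l) :
    Matrix.trace (𝓕.pA a k) = ∑ g, a.coeff g * 𝓕.T k g := by
  classical
  have h1 : a = ∑ g, a.coeff g • (single g (1 : OF M) : MonoidAlgebra (OF M) G) := by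
    ext h
    simp [MonoidAlgebra.coeff_sum, Finsupp.finsetSum_apply, Finsupp.single_apply]
  conv_lhs => rw [h1]
  rw [map_sum, Finset.sum_apply, Matrix.trace_sum]
  refine Finset.sum_congr rfl fun g _ => ?_
  rw [map_smul, Pi.smul_apply, Matrix.trace_smul, smul_eq_mul]
  rfl

theorem T_indep (c : Fin 𝓕.l → OF M) (hc : ∀ g, ∑ k, c k * 𝓕.T k g = 0) : c = 0 := by
  classical
  funext j
  haveI : Nonempty (Fin (𝓕.m j)) := ⟨⟨0, 𝓕.mpos j⟩⟩
  let E : Matrix (Fin (𝓕.m j)) (Fin (𝓕.m j)) (OF M) := Matrix.single ⟨0, 𝓕.mpos j⟩ ⟨0, 𝓕.mpos j⟩ 1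
  obtain ⟨a, ha⟩ := 𝓕.surj (Pi.single j E)
  have h1 : ∑ k, c k * Matrix.trace (𝓕.pA a k) = c j := by
    rw [Finset.sum_eq_single j]
    · rw [ha, Pi.single_eq_same, Matrix.trace_single_eq_same, mul_one]
    · intro k _ hk
      rw [ha, Pi.single_eq_of_ne hk, Matrix.trace_zero, mul_zero]
    · simp
  have h2 : ∑ k, c k * Matrix.trace (𝓕.pA a k) = ∑ g, a.coeff g * ∑ k, c k * 𝓕.T k g := by
    simp only [trace_pA_eq_sum_T, Finset.mul_sum]
    rw [Finset.sum_comm]
    refine Finset.sum_congr rfl fun g _ => Finset.sum_congr rfl fun k _ => ?_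
    ring
  rw [← h1, h2]
  simp [hc]


/-- The regular part of an element. -/
theorem exists_reg_part {p : ℕ} (hp : p.Prime) (g : G) : ∃ (r s : G) (e : ℕ), g = r * s ∧ Commute r s ∧ ¬ p ∣ orderOf r ∧ s ^ (p ^ e) = 1 := by
  classical
  have hn : orderOf g ≠ 0 := (orderOf_pos g).ne'
  obtain ⟨e, m, hm, hgm⟩ := Nat.exists_eq_pow_mul_and_not_dvd hn p hp.ne_one
  have hcop : IsCoprime ((p ^ e : ℕ) : ℤ) (m : ℤ) := by
    rw [Nat.isCoprime_iff_coprime]
    exact Nat.Coprime.pow_left _ ((Nat.Prime.coprime_iff_not_dvd hp).mpr hm)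
  obtain ⟨a, b, hab⟩ := hcop
  have hg1 : g ^ (((p ^ e : ℕ) : ℤ) * (m : ℤ)) = 1 := by
    have h1 : ((p ^ e : ℕ) : ℤ) * (m : ℤ) = ((orderOf g : ℕ) : ℤ) := by
      rw [hgm]
      push_cast
      ring
    rw [h1, zpow_natCast, pow_orderOf_eq_one]
  refine ⟨g ^ (a * ((p ^ e : ℕ) : ℤ)), g ^ (b * (m : ℤ)), e, ?_, ?_, ?_, ?_⟩
  · rw [← zpow_add, hab, zpow_one]
  · exact (Commute.refl g).zpow_zpow _ _
  · intro h
    have h1 : (g ^ (a * ((p ^ e : ℕ) : ℤ))) ^ m = 1 := by
      have h0 : a * ((p ^ e : ℕ) : ℤ) * (m : ℤ) = (((p ^ e : ℕ) : ℤ) * (m : ℤ)) * a := by ring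
      rw [← zpow_natCast, ← zpow_mul, h0, zpow_mul, hg1, one_zpow]
    exact hm (h.trans (orderOf_dvd_of_pow_eq_one h1))
  · have h0 : b * (m : ℤ) * ((p ^ e : ℕ) : ℤ) = (((p ^ e : ℕ) : ℤ) * (m : ℤ)) * b := by ring
    rw [← zpow_natCast, ← zpow_mul, h0, zpow_mul, hg1, one_zpow]

theorem orderOf_of_isConj {a b : G} (h : IsConj a b) : orderOf a = orderOf b := by
  obtain ⟨c, rfl⟩ := isConj_iff.mp h
  have h1 := orderOf_injective (MulAut.conj c).toMonoidHom (MulAut.conj c).injective a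
  simpa using h1.symm

/-- The number of simple modules is at most the number of regular classes. -/
theorem l_le_card_regular {p : ℕ} (hM : IsPModular p M) [Fintype {K : ConjClasses G // ¬ p ∣ orderOf (clsRep K)}] :
    𝓕.l ≤ Fintype.card {K : ConjClasses G // ¬ p ∣ orderOf (clsRep K)} := by
  classical
  let φ : (Fin 𝓕.l → OF M) →ₗ[OF M] ({K : ConjClasses G // ¬ p ∣ orderOf (clsRep K)} → OF M) :=
    { toFun := fun c K => ∑ k, c k * 𝓕.T k (clsRep K.1)
      map_add' := by
        intro a b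
        funext K
        simp only [Pi.add_apply, add_mul, Finset.sum_add_distrib]
      map_smul' := by
        intro r a
        funext K
        simp only [Pi.smul_apply, smul_eq_mul, RingHom.id_apply, Finset.mul_sum, mul_assoc] }
  have hφ : Function.Injective φ := by
    rw [← LinearMap.ker_eq_bot, LinearMap.ker_eq_bot']
    intro c hc
    apply 𝓕.T_indep
    intro g
    obtain ⟨r, s, e, rfl, hcomm, hr, hs⟩ := exists_reg_part hM.1 g
    have hconj : IsConj (clsRep (ConjClasses.mk r)) r := ConjClasses.mk_eq_mk_iff_isConj.mp (mk_clsRep _)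
    have hreg : ¬ p ∣ orderOf (clsRep (ConjClasses.mk r)) := by
      rwa [orderOf_of_isConj hconj]
    have h1 := congrFun hc ⟨ConjClasses.mk r, hreg⟩
    obtain ⟨x, hx⟩ := isConj_iff.mp hconj
    simp only [φ, LinearMap.coe_mk, AddHom.coe_mk, Pi.zero_apply] at h1
    rw [← h1]
    refine Finset.sum_congr rfl fun k _ => ?_
    have h2 : 𝓕.T k r = 𝓕.T k (clsRep (ConjClasses.mk r)) := by
      conv_lhs => rw [← hx]
      exact 𝓕.T_conj k _ x
    rw [𝓕.T_reg hM k hcomm e hs, h2]
  have h1 := LinearMap.finrank_le_finrank_of_injective hφ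
  simpa using h1

/-- The class functions vanishing on the `p`-singular elements. -/
def regSub (p : ℕ) (G : Type u) [Group G] : Submodule ℂ (G → ℂ) where
  carrier := {f | IsClassFunction G f ∧ ∀ g : G, p ∣ orderOf g → f g = 0}
  add_mem' := by
    rintro a b ⟨ha, ha'⟩ ⟨hb, hb'⟩
    refine ⟨fun g h => ?_, fun g hg => ?_⟩
    · simp only [Pi.add_apply]
      rw [ha, hb]
    · simp only [Pi.add_apply]
      rw [ha' g hg, hb' g hg, add_zero]
  zero_mem' := ⟨fun _ _ => rfl, fun _ _ => rfl⟩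
  smul_mem' := by
    rintro c a ⟨ha, ha'⟩
    refine ⟨fun g h => ?_, fun g hg => ?_⟩
    · simp only [Pi.smul_apply]
      rw [ha]
    · simp only [Pi.smul_apply]
      rw [ha' g hg, smul_zero]

theorem mem_regSub {p : ℕ} {f : G → ℂ} : f ∈ regSub p G ↔ IsClassFunction G f ∧ ∀ g : G, p ∣ orderOf g → f g = 0 :=
  Iff.rfl

theorem card_regular_le_finrank {p : ℕ} [Fintype {K : ConjClasses G // ¬ p ∣ orderOf (clsRep K)}] :
    Fintype.card {K : ConjClasses G // ¬ p ∣ orderOf (clsRep K)} ≤ finrank ℂ (regSub p G) := by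
  classical
  have hreg : ∀ g : G, ¬ p ∣ orderOf g → ¬ p ∣ orderOf (clsRep (ConjClasses.mk g)) := by
    intro g hg
    rwa [orderOf_of_isConj (ConjClasses.mk_eq_mk_iff_isConj.mp (mk_clsRep _) : IsConj (clsRep (ConjClasses.mk g)) g)]
  let ψ : ({K : ConjClasses G // ¬ p ∣ orderOf (clsRep K)} → ℂ) →ₗ[ℂ] regSub p G :=
    { toFun := fun c => ⟨fun g => if h : ¬ p ∣ orderOf g then c ⟨ConjClasses.mk g, hreg g h⟩ else 0, by
        refine ⟨fun g x => ?_, fun g hg => ?_⟩
        · beta_reduce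
          have hconj : IsConj (x * g * x⁻¹) g := (isConj_iff.mpr ⟨x, rfl⟩).symm
          have h1 := orderOf_of_isConj hconj
          have h2 : ConjClasses.mk (x * g * x⁻¹) = ConjClasses.mk g := ConjClasses.mk_eq_mk_iff_isConj.mpr hconj
          by_cases h : ¬ p ∣ orderOf g
          · rw [dif_pos h, dif_pos (by rwa [h1])]
            simp only [h2]
          · rw [dif_neg h, dif_neg (by rwa [h1])]
        · beta_reduce
          rw [dif_neg (not_not.mpr hg)]⟩
      map_add' := by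
        intro a b
        apply Subtype.ext
        funext g
        show (if h : ¬ p ∣ orderOf g then (a + b) ⟨ConjClasses.mk g, hreg g h⟩ else 0) = _ + _
        show _ = (if h : ¬ p ∣ orderOf g then a ⟨ConjClasses.mk g, hreg g h⟩ else 0) + (if h : ¬ p ∣ orderOf g then b ⟨ConjClasses.mk g, hreg g h⟩ else 0)
        by_cases h : ¬ p ∣ orderOf g
        · simp only [dif_pos h, Pi.add_apply]
        · simp only [dif_neg h, add_zero]
      map_smul' := by
        intro r a
        apply Subtype.ext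
        funext g
        show (if h : ¬ p ∣ orderOf g then (r • a) ⟨ConjClasses.mk g, hreg g h⟩ else 0) = r • (if h : ¬ p ∣ orderOf g then a ⟨ConjClasses.mk g, hreg g h⟩ else 0)
        by_cases h : ¬ p ∣ orderOf g
        · simp only [dif_pos h, Pi.smul_apply]
        · simp only [dif_neg h, smul_zero] }
  have hψ : Function.Injective ψ := by
    rw [← LinearMap.ker_eq_bot, LinearMap.ker_eq_bot']
    intro c hc
    funext K
    have h1 := congrFun (congrArg Subtype.val hc) (clsRep K.1)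
    have h2 : (if h : ¬ p ∣ orderOf (clsRep K.1) then c ⟨ConjClasses.mk (clsRep K.1), hreg _ h⟩ else 0) = 0 := h1
    rw [dif_pos K.2] at h2
    have h3 : (⟨ConjClasses.mk (clsRep K.1), hreg _ K.2⟩ : {K : ConjClasses G // ¬ p ∣ orderOf (clsRep K)}) = K :=
      Subtype.ext (mk_clsRep _)
    rw [h3] at h2
    exact h2
  have h1 := LinearMap.finrank_le_finrank_of_injective hψ
  simpa using h1

/-- The character of the projective indecomposable module. -/
noncomputable def Phi (k : Fin 𝓕.l) (g : G) : ℂ := ∑ χ : IrrCharacter G, chiL (χ : G → ℂ) (𝓕.P k) * (χ : G → ℂ) g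

theorem Phi_isClass (k : Fin 𝓕.l) : IsClassFunction G (𝓕.Phi k) := by
  intro g h
  simp only [Phi]
  refine Finset.sum_congr rfl fun χ _ => ?_
  rw [irr_isClassFunction χ]

theorem mem_span_Phi_of_proj {p : ℕ} (hM : IsPModular p M) {ψ : G → ℂ} (hψ : ψ ∈ projClosure p G)
    (hcl : IsClassFunction G ψ) : ψ ∈ Submodule.span ℂ (Set.range 𝓕.Phi) := by
  classical
  obtain ⟨N, hN⟩ := 𝓕.exists_N hM hψ
  have h1 : ψ = ∑ k, (N k : ℂ) • 𝓕.Phi k := by
    funext g
    have h2 := congrFun (classFunction_eq_sum ψ hcl) g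
    rw [Finset.sum_apply] at h2
    rw [h2, Finset.sum_apply]
    simp only [Pi.smul_apply, smul_eq_mul, Phi, hN, Finset.mul_sum, Finset.sum_mul]
    rw [Finset.sum_comm]
    refine Finset.sum_congr rfl fun k _ => Finset.sum_congr rfl fun χ _ => ?_
    ring
  rw [h1]
  exact Submodule.sum_mem _ fun k _ => Submodule.smul_mem _ _ (Submodule.subset_span ⟨k, rfl⟩)

theorem indFun_sum' (H : Subgroup G) {ι : Type*} (s : Finset ι) (c : ι → ℂ) (θ : ι → H → ℂ) :
    indFun H (∑ i ∈ s, c i • θ i) = ∑ i ∈ s, c i • indFun H (θ i) := by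
  classical
  induction s using Finset.induction_on with
  | empty =>
    rw [Finset.sum_empty, Finset.sum_empty, indFun_zero]
  | insert a s ha ih =>
    rw [Finset.sum_insert ha, Finset.sum_insert ha, indFun_add, indFun_smul, ih]

/-- The induced function of the point mass at a regular element. -/
theorem exists_point_mass [DecidableEq G] {p : ℕ} (hM : IsPModular p M) {x : G} (hx : ¬ p ∣ orderOf x) :
    ∃ I : G → ℂ, I ∈ Submodule.span ℂ (Set.range 𝓕.Phi) ∧
      ∀ g, I g = ∑ y : G, if y⁻¹ * g * y = x then 1 else 0 := by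
  classical
  let R : Subgroup G := Subgroup.zpowers x
  letI : Fintype R := Fintype.ofFinite _
  have hR : ¬ p ∣ Nat.card R := by
    rwa [Nat.card_zpowers]
  let xR : R := ⟨x, Subgroup.mem_zpowers x⟩
  let δ : R → ℂ := fun y => if y = xR then 1 else 0
  have hδ : IsClassFunction R δ := by
    intro g h
    have : h * g * h⁻¹ = g := by
      obtain ⟨a, ha⟩ := h.2
      obtain ⟨b, hb⟩ := g.2
      apply Subtype.ext
      simp only [Subgroup.coe_mul, Subgroup.coe_inv]
      have h1 : Commute (h : G) (g : G) := by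
        rw [← ha, ← hb]
        exact (Commute.refl x).zpow_zpow _ _
      rw [h1.eq]
      group
    simp only [δ, this]
  have hind : indFun R δ ∈ Submodule.span ℂ (Set.range 𝓕.Phi) := by
    have h1 := classFunction_eq_sum δ hδ
    rw [h1, indFun_sum']
    refine Submodule.sum_mem _ fun θ _ => Submodule.smul_mem _ _ ?_
    exact 𝓕.mem_span_Phi_of_proj hM (indFun_mem_projClosure R hR (character_mem_linClosure (IsIrrCharacter.isCharacter θ.2)))
      (isClassFunction_indFun R _)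
  refine ⟨(Nat.card R : ℂ) • indFun R δ, Submodule.smul_mem _ _ hind, fun g => ?_⟩
  have hcard : (Nat.card R : ℂ) ≠ 0 := by
    exact_mod_cast (Nat.card_pos (α := R)).ne'
  rw [Pi.smul_apply, indFun_apply, smul_eq_mul, ← mul_assoc, mul_inv_cancel₀ hcard, one_mul]
  refine Finset.sum_congr rfl fun y _ => ?_
  by_cases hy : y⁻¹ * g * y = x
  · rw [if_pos hy, hy]
    have h1 : (xR : G) = x := rfl
    rw [← h1, extendByZero_coe]
    simp [δ]
  · rw [if_neg hy]
    by_cases hy2 : y⁻¹ * g * y ∈ R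
    · have h1 : y⁻¹ * g * y = ((⟨_, hy2⟩ : R) : G) := rfl
      rw [h1, extendByZero_coe]
      have h2 : (⟨_, hy2⟩ : R) ≠ xR := fun h => hy (congrArg Subtype.val h)
      simp [δ, h2]
    · exact extendByZero_of_notMem _ _ hy2

theorem regSub_le_span {p : ℕ} (hM : IsPModular p M) : regSub p G ≤ Submodule.span ℂ (Set.range 𝓕.Phi) := by
  classical
  rintro f ⟨hcl, hv⟩
  have hG : (Nat.card G : ℂ) ≠ 0 := card_ne_zero_complex
  have hI : ∀ x : G, ∃ I : G → ℂ, I ∈ Submodule.span ℂ (Set.range 𝓕.Phi) ∧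
      ∀ g, f x * I g = f x * ∑ y : G, if y⁻¹ * g * y = x then 1 else 0 := by
    intro x
    by_cases hx : p ∣ orderOf x
    · exact ⟨0, Submodule.zero_mem _, fun g => by rw [hv x hx]; simp⟩
    · obtain ⟨I, h1, h2⟩ := 𝓕.exists_point_mass hM hx
      exact ⟨I, h1, fun g => by rw [h2]⟩
  choose I hI1 hI2 using hI
  have h1 : f = (Nat.card G : ℂ)⁻¹ • ∑ x, f x • I x := by
    funext g
    rw [Pi.smul_apply, Finset.sum_apply, smul_eq_mul]
    have h2 : ∀ y : G, ∑ x : G, f x * (if y⁻¹ * g * y = x then 1 else 0) = f g := by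
      intro y
      rw [Finset.sum_eq_single (y⁻¹ * g * y)]
      · rw [if_pos rfl, mul_one]
        have h3 := hcl g y⁻¹
        rwa [inv_inv] at h3
      · intro b _ hb
        rw [if_neg (Ne.symm hb), mul_zero]
      · simp
    have h3 : ∑ x, (f x • I x) g = (Nat.card G : ℂ) * f g := by
      simp only [Pi.smul_apply, smul_eq_mul, hI2, Finset.mul_sum]
      rw [Finset.sum_comm, Finset.sum_congr rfl fun y _ => h2 y, Finset.sum_const, Finset.card_univ, nsmul_eq_mul,
        ← Nat.card_eq_fintype_card]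
    rw [h3, ← mul_assoc, inv_mul_cancel₀ hG, one_mul]
  rw [h1]
  exact Submodule.smul_mem _ _ (Submodule.sum_mem _ fun x _ => Submodule.smul_mem _ _ (hI1 x))

/-- **The projective characters span the functions on the regular classes.** -/
theorem span_Phi_eq {p : ℕ} (hM : IsPModular p M) : regSub p G = Submodule.span ℂ (Set.range 𝓕.Phi) := by
  classical
  apply Submodule.eq_of_le_of_finrank_le (𝓕.regSub_le_span hM)
  have h1 := finrank_range_le_card (R := ℂ) 𝓕.Phi
  have h2 := 𝓕.l_le_card_regular hM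
  have h3 := card_regular_le_finrank (G := G) (p := p)
  simp only [Fintype.card_fin] at h1
  exact h1.trans (h2.trans h3)

theorem Phi_mem_regSub {p : ℕ} (hM : IsPModular p M) (k : Fin 𝓕.l) : 𝓕.Phi k ∈ regSub p G := by
  rw [𝓕.span_Phi_eq hM]
  exact Submodule.subset_span ⟨k, rfl⟩

/-- **Projective characters vanish on the `p`-singular elements.** -/
theorem Phi_vanish {p : ℕ} (hM : IsPModular p M) (k : Fin 𝓕.l) {g : G} (hg : p ∣ orderOf g) : 𝓕.Phi k g = 0 :=
  (𝓕.Phi_mem_regSub hM k).2 g hg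

/-- A function on the regular classes orthogonal to the projective characters vanishes. -/
theorem eq_zero_of_orth {p : ℕ} (hM : IsPModular p M) {f : G → ℂ} (hf : f ∈ regSub p G)
    (horth : ∀ k, classInner f (𝓕.Phi k) = 0) : f = 0 := by
  classical
  have h1 : ∀ x ∈ Submodule.span ℂ (Set.range 𝓕.Phi), classInner f x = 0 := by
    intro x hx
    induction hx using Submodule.span_induction with
    | mem x h =>
      obtain ⟨k, rfl⟩ := h
      exact horth k
    | zero => simp [classInner]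
    | add a b _ _ ha hb =>
      have h2 : classInner f (a + b) = classInner f a + classInner f b := by
        simp only [classInner, Pi.add_apply, map_add, mul_add, Finset.sum_add_distrib]
      rw [h2, ha, hb, add_zero]
    | smul c a _ ha =>
      have h2 : classInner f (c • a) = conj c * classInner f a := by
        simp only [classInner, Pi.smul_apply, smul_eq_mul, map_mul, Finset.mul_sum]
        refine Finset.sum_congr rfl fun g _ => ?_
        ring
      rw [h2, ha, mul_zero]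
  rw [𝓕.span_Phi_eq hM] at hf
  have h2 := h1 f hf
  have hG : (Nat.card G : ℂ)⁻¹ ≠ 0 := inv_ne_zero card_ne_zero_complex
  have h3 : ∑ g : G, f g * conj (f g) = 0 := by
    rw [classInner] at h2
    exact (mul_eq_zero.mp h2).resolve_left hG
  have h4 : ∑ g : G, Complex.normSq (f g) = 0 := by
    have h5 : ((∑ g : G, Complex.normSq (f g) : ℝ) : ℂ) = 0 := by
      rw [Complex.ofReal_sum, ← h3]
      refine Finset.sum_congr rfl fun g _ => ?_
      rw [Complex.mul_conj]
    exact_mod_cast h5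
  funext g
  have h5 := (Finset.sum_eq_zero_iff_of_nonneg (fun x _ => Complex.normSq_nonneg (f x))).mp h4 g (Finset.mem_univ _)
  exact Complex.normSq_eq_zero.mp h5


/-- The decomposition numbers. -/
noncomputable def Dn (χ : IrrCharacter G) (k : Fin 𝓕.l) : ℕ := idN (χ : G → ℂ) (𝓕.P k)

theorem chiL_P (χ : IrrCharacter G) (k : Fin 𝓕.l) : chiL (χ : G → ℂ) (𝓕.P k) = (𝓕.Dn χ k : ℂ) :=
  chiL_eq_idN (IsIrrCharacter.isCharacter χ.2) (𝓕.idem _)

theorem classInner_Phi (f : G → ℂ) (k : Fin 𝓕.l) :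
    classInner f (𝓕.Phi k) = ∑ χ : IrrCharacter G, (𝓕.Dn χ k : ℂ) * classInner f (χ : G → ℂ) := by
  classical
  simp only [classInner, Phi, chiL_P, map_sum, map_mul, Complex.conj_natCast, Finset.mul_sum]
  rw [Finset.sum_comm]
  refine Finset.sum_congr rfl fun χ _ => Finset.sum_congr rfl fun g _ => ?_
  ring

theorem classInner_irr_Phi (ξ : IrrCharacter G) (k : Fin 𝓕.l) : classInner (ξ : G → ℂ) (𝓕.Phi k) = (𝓕.Dn ξ k : ℂ) := by
  classical
  rw [classInner_Phi, Finset.sum_eq_single ξ]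
  · rw [classInner_irr_self ξ.2, mul_one]
  · intro χ _ hχ
    rw [classInner_irr_of_ne ξ.2 χ.2 (fun h => hχ (Subtype.ext h.symm)), mul_zero]
  · simp

theorem isGen_int_smul (n : ℤ) {f : G → ℂ} (hf : IsCharacter G f) : IsGeneralizedCharacter G ((n : ℂ) • f) := by
  have hgen : IsGeneralizedCharacter G f := IsGeneralizedCharacter.of_character hf
  induction n using Int.induction_on with
  | zero => simpa using isGeneralizedCharacter_zero
  | succ i ih =>
    have h1 : (((i : ℤ) + 1 : ℤ) : ℂ) • f = ((i : ℤ) : ℂ) • f + f := by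
      push_cast
      rw [add_smul, one_smul]
    rw [h1]
    exact IsGeneralizedCharacter.add ih hgen
  | pred i ih =>
    have h1 : ((-(i : ℤ) - 1 : ℤ) : ℂ) • f = ((-(i : ℤ) : ℤ) : ℂ) • f + -f := by
      push_cast
      rw [sub_eq_add_neg, add_smul, neg_smul, neg_smul, one_smul]
    rw [h1]
    exact IsGeneralizedCharacter.add ih (IsGeneralizedCharacter.neg hgen)

/-- **An integral left inverse of the decomposition matrix.** -/
theorem exists_leftInv {p : ℕ} (hM : IsPModular p M) :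
    ∃ A : Fin 𝓕.l → IrrCharacter G → ℤ, ∀ k j, ∑ χ, A k χ * (𝓕.Dn χ j : ℤ) = if k = j then 1 else 0 := by
  classical
  apply exists_left_inverse_of_saturated (fun χ j => (𝓕.Dn χ j : ℤ))
  · intro c hc
    apply 𝓕.indep hM c
    intro χ
    have h1 := hc χ
    simp only [chiL_P]
    exact_mod_cast h1
  · intro n x c hn hx
    have hnC : (n : ℂ) ≠ 0 := by exact_mod_cast hn
    set ψ : G → ℂ := ∑ χ : IrrCharacter G, (x χ : ℂ) • (χ : G → ℂ) with hψ
    have hgen : IsGeneralizedCharacter G ψ :=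
      IsGeneralizedCharacter.sum' _ fun χ _ => isGen_int_smul _ (IsIrrCharacter.isCharacter χ.2)
    have hval : ∀ g, (n : ℂ) * ψ g = ∑ j, (c j : ℂ) * 𝓕.Phi j g := by
      intro g
      rw [hψ, Finset.sum_apply]
      simp only [Pi.smul_apply, smul_eq_mul, Phi, chiL_P, Finset.mul_sum]
      rw [Finset.sum_comm]
      refine Finset.sum_congr rfl fun χ _ => ?_
      have h1 : (n : ℂ) * (x χ : ℂ) = ∑ j, (c j : ℂ) * (𝓕.Dn χ j : ℂ) := by
        exact_mod_cast hx χ
      rw [← mul_assoc, h1, Finset.sum_mul]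
      refine Finset.sum_congr rfl fun j _ => ?_
      ring
    have hv : ∀ g : G, p ∣ orderOf g → ψ g = 0 := by
      intro g hg
      have h1 := hval g
      rw [Finset.sum_eq_zero fun j _ => by rw [𝓕.Phi_vanish hM j hg, mul_zero]] at h1
      exact (mul_eq_zero.mp h1).resolve_left hnC
    obtain ⟨N, hN⟩ := 𝓕.exists_N hM (mem_projClosure_of_vanish hM.1 hgen hv)
    refine ⟨N, fun χ => ?_⟩
    have h1 := hN χ
    have h2 : classInner ψ (χ : G → ℂ) = (x χ : ℂ) := by
      rw [hψ]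
      have h3 := classInner_sum_left (Finset.univ) (fun ξ : IrrCharacter G => (x ξ : ℂ) • (ξ : G → ℂ)) (χ : G → ℂ)
      rw [h3, Finset.sum_eq_single χ]
      · rw [classInner_smul_left, classInner_irr_self χ.2, mul_one]
      · intro ξ _ hξ
        rw [classInner_smul_left, classInner_irr_of_ne ξ.2 χ.2 (fun h => hξ (Subtype.ext h)), mul_zero]
      · simp
    rw [h2] at h1
    simp only [chiL_P] at h1
    exact_mod_cast h1

/-- The block partition of the simple modules. -/
theorem exists_blockPart {p : ℕ} (hM : IsPModular p M) {B : Set (IrrCharacter G)} (hB : IsPBlock M B) :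
    ∃ Kb : Fin 𝓕.l → Prop, (∀ χ, χ ∉ B → ∀ k, Kb k → 𝓕.Dn χ k = 0) ∧ (∀ χ ∈ B, ∀ k, ¬ Kb k → 𝓕.Dn χ k = 0) := by
  classical
  set e := eltZ (indic B) (indic_mem_zS hB) with he
  have hee : e * e = e := by
    rw [he, eltZ_mul]
    simp only [indic_mul_self]
  have hcent : ∀ a, e * a = a * e := eltZ_central _
  have hχc : ∀ χ : IrrCharacter G, IsCharacter G (χ : G → ℂ) := fun χ => IsIrrCharacter.isCharacter χ.2
  let Kb : Fin 𝓕.l → Prop := fun k => 𝓕.pA (resA e) k = 1
  have hae : ∀ k, (Kb k ∧ 𝓕.a e k = 𝓕.m k) ∨ (¬ Kb k ∧ 𝓕.a e k = 0) := by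
    intro k
    rcases 𝓕.pA_central hcent hee k with h | h
    · right
      haveI : Nonempty (Fin (𝓕.m k)) := ⟨⟨0, 𝓕.mpos k⟩⟩
      refine ⟨?_, ?_⟩
      · intro h1
        have h2 : (1 : Matrix (Fin (𝓕.m k)) (Fin (𝓕.m k)) (OF M)) = 0 := by
          rw [← h]
          exact h1.symm
        exact one_ne_zero h2
      · rw [OFrame.a, h]
        exact Matrix.rank_zero
    · left
      refine ⟨h, ?_⟩
      rw [OFrame.a, h, Matrix.rank_one]
      simp
  have heq1 : ∀ χ : IrrCharacter G, indic B χ * (χ : G → ℂ) 1 = ∑ k, (𝓕.a e k : ℂ) * (𝓕.Dn χ k : ℂ) := by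
    intro χ
    rw [← chiL_eltZ (indic_mem_zS hB), 𝓕.chiL_eq_sum (hχc χ) hee]
    exact Finset.sum_congr rfl fun k _ => by rw [chiL_P]
  have hdeg : ∀ χ : IrrCharacter G, (χ : G → ℂ) 1 = ∑ k, (𝓕.m k : ℂ) * (𝓕.Dn χ k : ℂ) := by
    intro χ
    rw [𝓕.apply_one_eq_sum (hχc χ)]
    exact Finset.sum_congr rfl fun k _ => by rw [chiL_P]
  refine ⟨Kb, ?_, ?_⟩
  · intro χ hχ k hk
    have h1 := heq1 χ
    rw [indic_apply_of_notMem hχ, zero_mul] at h1
    have h2 : ∑ k, 𝓕.a e k * 𝓕.Dn χ k = 0 := by exact_mod_cast h1.symm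
    have h3 := (Finset.sum_eq_zero_iff.mp h2) k (Finset.mem_univ _)
    rcases hae k with ⟨-, h4⟩ | ⟨h4, -⟩
    · rw [h4] at h3
      exact (mul_eq_zero.mp h3).resolve_left (𝓕.mpos k).ne'
    · exact absurd hk h4
  · intro χ hχ k hk
    have h1 := heq1 χ
    rw [indic_apply_of_mem hχ, one_mul, hdeg χ] at h1
    have h2 : ∑ k, 𝓕.m k * 𝓕.Dn χ k = ∑ k, 𝓕.a e k * 𝓕.Dn χ k := by exact_mod_cast h1
    have hle : ∀ j ∈ (Finset.univ : Finset (Fin 𝓕.l)), 𝓕.a e j * 𝓕.Dn χ j ≤ 𝓕.m j * 𝓕.Dn χ j :=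
      fun j _ => Nat.mul_le_mul_right _ (𝓕.a_le e j)
    have h3 := (Finset.sum_eq_sum_iff_of_le hle).mp h2.symm k (Finset.mem_univ _)
    rcases hae k with ⟨h4, -⟩ | ⟨-, h4⟩
    · exact absurd h4 hk
    · rw [h4, zero_mul] at h3
      exact (mul_eq_zero.mp h3.symm).resolve_left (𝓕.mpos k).ne'

theorem exists_Dn_ne {p : ℕ} (hM : IsPModular p M) (k : Fin 𝓕.l) : ∃ χ, 𝓕.Dn χ k ≠ 0 := by
  classical
  by_contra h
  push Not at h
  have h1 := 𝓕.indep hM (fun j => if j = k then 1 else 0) (by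
    intro χ
    rw [Finset.sum_eq_single k]
    · rw [chiL_P, h χ]
      simp
    · intro j _ hj
      simp [hj]
    · simp)
  have h2 := congrFun h1 k
  simp at h2

/-- Divisibility of the degrees of the projective modules. -/
theorem pow_dvd_sum_Dn {p : ℕ} [Fact p.Prime] (hM : IsPModular p M) (k : Fin 𝓕.l) {A : ℕ} (hA : p ^ A ∣ Nat.card G) :
    p ^ A ∣ ∑ χ : IrrCharacter G, 𝓕.Dn χ k * charDegree (χ : G → ℂ) := by
  classical
  apply pow_dvd_of_memLocalRing hM
  have h1 := coeff_eq_sum_chiL (𝓕.P k) (1 : G)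
  have hG : (Nat.card G : ℂ) ≠ 0 := card_ne_zero_complex
  obtain ⟨c, hc⟩ := hA
  have hc' : (Nat.card G : ℂ) = ((p ^ A : ℕ) : ℂ) * (c : ℂ) := by exact_mod_cast hc
  have hpA : ((p ^ A : ℕ) : ℂ) ≠ 0 := by
    intro h
    apply hG
    rw [hc', h, zero_mul]
  have h2 : ((∑ χ : IrrCharacter G, 𝓕.Dn χ k * charDegree (χ : G → ℂ) : ℕ) : ℂ) =
      (Nat.card G : ℂ) * (((𝓕.P k).coeff 1 : locRing M) : ℂ) := by
    rw [h1, ← mul_assoc, mul_inv_cancel₀ hG, one_mul]
    push_cast
    refine Finset.sum_congr rfl fun χ _ => ?_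
    have h3 : (single (1 : G)⁻¹ 1 : MonoidAlgebra (locRing M) G) = 1 := by
      rw [inv_one]
      rfl
    rw [h3, mul_one, chiL_P, apply_one_eq_charDegree (IsIrrCharacter.isCharacter χ.2)]
    ring
  have h3 : ((∑ χ : IrrCharacter G, 𝓕.Dn χ k * charDegree (χ : G → ℂ) : ℕ) : ℂ) / ((p ^ A : ℕ) : ℂ) =
      (c : ℂ) * (((𝓕.P k).coeff 1 : locRing M) : ℂ) := by
    rw [h2, hc']
    field_simp
  rw [h3]
  exact MemLocalRing.mul (MemLocalRing.natCast _) ((𝓕.P k).coeff 1).2

end OFrame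

end Frame

end Cfsg.Agent.Lib.LocalAlg
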