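import Cfsg.Agent.Lib.LocalAlg.DegSum

/-!
# The block data: simple modules of a block

The part of the decomposition matrix belonging to a block with an integral left inverse,
and the structure of the sum of the squares of the degrees of the characters of a block.
-/

set_option autoImplicit false
set_option linter.unusedSectionVars false
set_option linter.unusedVariables false

namespace Cfsg.Agent.Lib.LocalAlg

open Cfsg Cfsg.Agent.Lib.Char Cfsg.Agent.Lib.Blocks Cfsg.Agent.Lib.H8Group Finset Module MonoidAlgebra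
open scoped ComplexConjugate

universe u

section Frame

variable {M : Ideal AlgInt} [hMp : M.IsPrime] {G : Type u} [Group G] [Fintype G]

theorem sum_subtype_of_zero {ι α : Type*} [Fintype ι] [AddCommMonoid α] (P : ι → Prop) [DecidablePred P]
    (f : ι → α) (hf : ∀ k, ¬ P k → f k = 0) : ∑ k : {k // P k}, f k.1 = ∑ k, f k := by
  classical
  rw [← Finset.sum_subtype (Finset.univ.filter P) (by simp) f]
  apply Finset.sum_filter_of_ne
  intro k _ hk
  by_contra h
  exact hk (hf k h)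

theorem pRegularPart_apply {p : ℕ} (χ : G → ℂ) (g : G) [Decidable (p ∣ orderOf g)] :
    pRegularPart p χ g = if ¬ p ∣ orderOf g then χ g else 0 := by
  classical
  unfold pRegularPart IsPRegular
  congr

theorem pRegularPart_of_reg {p : ℕ} (χ : G → ℂ) {g : G} (hg : ¬ p ∣ orderOf g) : pRegularPart p χ g = χ g := by
  classical
  rw [pRegularPart_apply, if_pos hg]

theorem pRegularPart_of_sing {p : ℕ} (χ : G → ℂ) {g : G} (hg : p ∣ orderOf g) : pRegularPart p χ g = 0 := by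
  classical
  rw [pRegularPart_apply, if_neg (not_not.mpr hg)]

theorem pRegularPart_mem {p : ℕ} {χ : G → ℂ} (hχ : IsClassFunction G χ) : pRegularPart p χ ∈ OFrame.regSub p G := by
  classical
  refine ⟨fun g h => ?_, fun g hg => pRegularPart_of_sing χ hg⟩
  have hconj : IsConj (h * g * h⁻¹) g := (isConj_iff.mpr ⟨h, rfl⟩).symm
  have h1 := OFrame.orderOf_of_isConj hconj
  by_cases hg : p ∣ orderOf g
  · rw [pRegularPart_of_sing χ hg, pRegularPart_of_sing χ (by rwa [h1])]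
  · rw [pRegularPart_of_reg χ hg, pRegularPart_of_reg χ (by rwa [h1]), hχ]

/-- **The block part of the decomposition matrix.** -/
theorem exists_block_frame {p : ℕ} [Fact p.Prime] (hM : IsPModular p M) {B : Set (IrrCharacter G)} (hB : IsPBlock M B) :
    ∃ (K : Type) (_ : Fintype K) (_ : DecidableEq K) (m : K → ℕ) (d : IrrCharacter G → K → ℕ) (a : K → IrrCharacter G → ℤ),
      (∀ k, 0 < m k) ∧ (∀ χ ∈ B, charDegree (χ : G → ℂ) = ∑ k, m k * d χ k) ∧
      (∀ χ, χ ∉ B → ∀ k, d χ k = 0) ∧ (∀ k χ, χ ∉ B → a k χ = 0) ∧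
      (∀ k j, ∑ χ, a k χ * (d χ j : ℤ) = if k = j then 1 else 0) ∧
      (∀ k, 0 < ∑ χ : IrrCharacter G, d χ k * charDegree (χ : G → ℂ)) ∧
      (∀ A, p ^ A ∣ Nat.card G → ∀ k, p ^ A ∣ ∑ χ : IrrCharacter G, d χ k * charDegree (χ : G → ℂ)) ∧
      (∀ χ ∈ B, pRegularPart p (χ : G → ℂ) =
        ∑ k, (d χ k : ℂ) • ∑ ξ : IrrCharacter G, (a k ξ : ℂ) • pRegularPart p (ξ : G → ℂ)) := by
  classical
  obtain ⟨𝓕⟩ := exists_oFrame (M := M) (G := G)
  obtain ⟨Kb, h0, h1⟩ := 𝓕.exists_blockPart hM hB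
  obtain ⟨A, hA⟩ := 𝓕.exists_leftInv hM
  have hχc : ∀ χ : IrrCharacter G, IsCharacter G (χ : G → ℂ) := fun χ => IsIrrCharacter.isCharacter χ.2
  have hdelta : ∀ (k j : {k // Kb k}), ∑ χ, (if χ ∈ B then A k.1 χ else 0) * (𝓕.Dn χ j.1 : ℤ) = if k = j then 1 else 0 := by
    intro k j
    have h2 : ∑ χ, (if χ ∈ B then A k.1 χ else 0) * (𝓕.Dn χ j.1 : ℤ) = ∑ χ, A k.1 χ * (𝓕.Dn χ j.1 : ℤ) := by
      refine Finset.sum_congr rfl fun χ _ => ?_
      by_cases hχ : χ ∈ B
      · rw [if_pos hχ]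
      · rw [if_neg hχ, h0 χ hχ j.1 j.2]
        simp
    rw [h2, hA]
    by_cases hkj : k = j
    · rw [if_pos hkj, if_pos (congrArg Subtype.val hkj)]
    · rw [if_neg hkj, if_neg (fun h => hkj (Subtype.ext h))]
  refine ⟨{k // Kb k}, inferInstance, inferInstance, fun k => 𝓕.m k.1, fun χ k => 𝓕.Dn χ k.1,
    fun k χ => if χ ∈ B then A k.1 χ else 0, fun k => 𝓕.mpos k.1, ?_, fun χ hχ k => h0 χ hχ k.1 k.2,
    fun k χ hχ => if_neg hχ, hdelta, ?_, fun A' hA' k => 𝓕.pow_dvd_sum_Dn hM k.1 hA', ?_⟩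
  · intro χ hχ
    rw [sum_subtype_of_zero Kb (fun k => 𝓕.m k * 𝓕.Dn χ k) (fun k hk => by rw [h1 χ hχ k hk, mul_zero])]
    have h2 := 𝓕.apply_one_eq_sum (hχc χ)
    rw [apply_one_eq_charDegree (hχc χ)] at h2
    simp only [OFrame.chiL_P] at h2
    exact_mod_cast h2
  · intro k
    obtain ⟨χ, hχ⟩ := 𝓕.exists_Dn_ne hM k.1
    have h2 := Finset.single_le_sum (f := fun χ : IrrCharacter G => 𝓕.Dn χ k.1 * charDegree (χ : G → ℂ))
      (fun _ _ => Nat.zero_le _) (Finset.mem_univ χ)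
    have h3 : 0 < 𝓕.Dn χ k.1 * charDegree (χ : G → ℂ) := Nat.mul_pos (Nat.pos_of_ne_zero hχ) (charDegree_pos χ.2)
    exact lt_of_lt_of_le h3 h2
  · intro χ hχ
    rw [← sub_eq_zero]
    apply 𝓕.eq_zero_of_orth hM
    · refine Submodule.sub_mem _ (pRegularPart_mem (irr_isClassFunction χ)) ?_
      refine Submodule.sum_mem _ fun k _ => Submodule.smul_mem _ _ ?_
      exact Submodule.sum_mem _ fun ξ _ => Submodule.smul_mem _ _ (pRegularPart_mem (irr_isClassFunction ξ))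
    · intro j
      have hin : ∀ ξ : IrrCharacter G, classInner (pRegularPart p (ξ : G → ℂ)) (𝓕.Phi j) = (𝓕.Dn ξ j : ℂ) := by
        intro ξ
        rw [← 𝓕.classInner_irr_Phi ξ j]
        simp only [classInner]
        congr 1
        refine Finset.sum_congr rfl fun g _ => ?_
        by_cases hg : p ∣ orderOf g
        · rw [𝓕.Phi_vanish hM j hg]
          simp
        · rw [pRegularPart_of_reg _ hg]
      have hsub : ∀ x y : G → ℂ, classInner (x - y) (𝓕.Phi j) = classInner x (𝓕.Phi j) - classInner y (𝓕.Phi j) := by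
        intro x y
        simp only [classInner, Pi.sub_apply, sub_mul, Finset.sum_sub_distrib, mul_sub]
      rw [hsub, classInner_sum_left, hin, Finset.sum_congr rfl fun k _ => classInner_smul_left _ _ _]
      simp only [classInner_sum_left, classInner_smul_left, hin]
      by_cases hj : Kb j
      · have h2 : ∀ k : {k // Kb k}, ∑ ξ : IrrCharacter G, ((if ξ ∈ B then A k.1 ξ else 0 : ℤ) : ℂ) * (𝓕.Dn ξ j : ℂ) =
            if k = ⟨j, hj⟩ then 1 else 0 := by
          intro k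
          have h3 := hdelta k ⟨j, hj⟩
          have h4 := congrArg (fun z : ℤ => (z : ℂ)) h3
          simp only [Int.cast_sum, Int.cast_mul, Int.cast_natCast] at h4
          rw [h4]
          split_ifs <;> simp
        rw [Finset.sum_congr rfl fun k _ => by rw [h2 k], Finset.sum_eq_single (⟨j, hj⟩ : {k // Kb k})]
        · simp
        · intro k _ hk
          rw [if_neg hk, mul_zero]
        · simp
      · rw [h1 χ hχ j hj]
        simp only [Nat.cast_zero, zero_sub]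
        rw [neg_eq_zero]
        refine Finset.sum_eq_zero fun k _ => ?_
        rw [Finset.sum_eq_zero, mul_zero]
        intro ξ _
        by_cases hξ : ξ ∈ B
        · rw [h1 ξ hξ j hj]
          simp
        · rw [if_neg hξ]
          simp


/-- **The non-divisibility core.** -/
theorem not_dvd_core {p : ℕ} [Fact p.Prime] (hM : IsPModular p M) {B : Set (IrrCharacter G)} (hB : IsPBlock M B)
    {K : Type} [Fintype K] [DecidableEq K] (d : IrrCharacter G → K → ℕ) (aa : K → IrrCharacter G → ℤ)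
    (hd0 : ∀ χ, χ ∉ B → ∀ k, d χ k = 0) (ha0 : ∀ k χ, χ ∉ B → aa k χ = 0)
    (hreg : ∀ χ ∈ B, pRegularPart p (χ : G → ℂ) =
        ∑ k, (d χ k : ℂ) • ∑ ξ : IrrCharacter G, (aa k ξ : ℂ) • pRegularPart p (ξ : G → ℂ))
    {A t n₀ m₀ : ℕ} (hcard : Nat.card G = p ^ A * m₀) (hm₀ : ¬ p ∣ m₀) (hpt : 0 < p ^ t) {χ₀ : IrrCharacter G} (hχ₀ : χ₀ ∈ B)
    (hn₀ : charDegree (χ₀ : G → ℂ) = p ^ t * n₀) (hn₀p : ¬ p ∣ n₀) (n : IrrCharacter G → ℕ)
    (hn : ∀ ξ ∈ B, charDegree (ξ : G → ℂ) = p ^ t * n ξ) (f : K → ℕ)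
    (hf : ∀ k, ∑ χ : IrrCharacter G, d χ k * charDegree (χ : G → ℂ) = p ^ A * f k) (W : ℕ)
    (hW : ∑ ξ : IrrCharacter G, (∑ k, (f k : ℤ) * aa k ξ) * (n ξ : ℤ) = W) : ¬ p ∣ W := by
  classical
  intro hV
  have hpp : p.Prime := Fact.out
  have hpAne : ((p ^ A : ℕ) : ℂ) ≠ 0 := by
    have : (p ^ A : ℕ) ≠ 0 := (pow_pos hpp.pos A).ne'
    exact_mod_cast this
  have hptC : ((p ^ t : ℕ) : ℂ) ≠ 0 := by exact_mod_cast hpt.ne'
  have hG : (Nat.card G : ℂ) ≠ 0 := card_ne_zero_complex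
  have hχc : ∀ χ : IrrCharacter G, IsCharacter G (χ : G → ℂ) := fun χ => IsIrrCharacter.isCharacter χ.2
  let z : IrrCharacter G → ℤ := fun ξ => ∑ k, (f k : ℤ) * aa k ξ
  have hz0 : ∀ ξ, ξ ∉ B → z ξ = 0 := by
    intro ξ hξ
    exact Finset.sum_eq_zero fun k _ => by rw [ha0 k ξ hξ, mul_zero]
  -- the pairing function
  let f₀ : G → ℂ := fun x => pRegularPart p (χ₀ : G → ℂ) x⁻¹
  have hf₀cl : IsClassFunction G f₀ := by
    intro g h
    have h1 := (pRegularPart_mem (p := p) (irr_isClassFunction χ₀)).1 g⁻¹ h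
    simp only [f₀, mul_inv_rev, inv_inv]
    rw [← mul_assoc] at *
    exact h1
  have hf₀loc : ∀ x, MemLocalRing M (f₀ x) := by
    intro x
    simp only [f₀]
    by_cases hx : p ∣ orderOf x⁻¹
    · rw [pRegularPart_of_sing _ hx]
      exact memLocalRing_zero
    · rw [pRegularPart_of_reg _ hx]
      exact Cfsg.Agent.Lib.Blocks.memLocalRing_of_isIntegral (irr_isIntegral χ₀ _)
  have hc : spec f₀ ∈ zS M G := Cfsg.Agent.Lib.Blocks.spec_mem_zS hf₀cl hf₀loc
  set c := spec f₀ with hcdef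
  -- the pairing
  have hT : ∀ ξ : IrrCharacter G, ∑ x, pRegularPart p (ξ : G → ℂ) x * conj ((χ₀ : G → ℂ) x) = (charDegree (ξ : G → ℂ) : ℂ) * c ξ := by
    intro ξ
    have h1 : (ξ : G → ℂ) 1 ≠ 0 := irr_apply_one_ne_zero ξ
    rw [← apply_one_eq_charDegree (hχc ξ), hcdef, spec, mul_div_cancel₀ _ h1]
    refine Finset.sum_congr rfl fun x _ => ?_
    simp only [f₀]
    by_cases hx : p ∣ orderOf x
    · rw [pRegularPart_of_sing _ hx, pRegularPart_of_sing _ (by rwa [orderOf_inv])]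
      simp
    · rw [pRegularPart_of_reg _ hx, pRegularPart_of_reg _ (by rwa [orderOf_inv]), irr_apply_inv]
      ring
  -- the identity on the group
  have hρ : ∀ x : G, ((p ^ A : ℕ) : ℂ) * ∑ ξ : IrrCharacter G, (z ξ : ℂ) * pRegularPart p (ξ : G → ℂ) x =
      ∑ χ : IrrCharacter G, indic B χ * ((charDegree (χ : G → ℂ) : ℂ) * (χ : G → ℂ) x) := by
    intro x
    have h1 : ((p ^ A : ℕ) : ℂ) * ∑ ξ : IrrCharacter G, (z ξ : ℂ) * pRegularPart p (ξ : G → ℂ) x =
        ∑ k, ((p ^ A * f k : ℕ) : ℂ) * ∑ ξ : IrrCharacter G, (aa k ξ : ℂ) * pRegularPart p (ξ : G → ℂ) x := by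
      simp only [z, Int.cast_sum, Int.cast_mul, Int.cast_natCast, Finset.sum_mul, Finset.mul_sum]
      rw [Finset.sum_comm]
      refine Finset.sum_congr rfl fun k _ => Finset.sum_congr rfl fun ξ _ => ?_
      push_cast
      ring
    have h2 : ∀ χ ∈ B, pRegularPart p (χ : G → ℂ) x = ∑ k, (d χ k : ℂ) * ∑ ξ : IrrCharacter G, (aa k ξ : ℂ) * pRegularPart p (ξ : G → ℂ) x := by
      intro χ hχ
      have h3 := congrFun (hreg χ hχ) x
      rw [h3, Finset.sum_apply]
      refine Finset.sum_congr rfl fun k _ => ?_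
      rw [Pi.smul_apply, Finset.sum_apply, smul_eq_mul]
      rfl
    have h3 : ∑ k, ((p ^ A * f k : ℕ) : ℂ) * ∑ ξ : IrrCharacter G, (aa k ξ : ℂ) * pRegularPart p (ξ : G → ℂ) x =
        ∑ χ : IrrCharacter G, indic B χ * ((charDegree (χ : G → ℂ) : ℂ) * pRegularPart p (χ : G → ℂ) x) := by
      simp only [← hf]
      push_cast
      simp only [Finset.sum_mul]
      rw [Finset.sum_comm]
      refine Finset.sum_congr rfl fun χ _ => ?_
      by_cases hχ : χ ∈ B
      · rw [indic_apply_of_mem hχ, one_mul, h2 χ hχ, Finset.mul_sum]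
        refine Finset.sum_congr rfl fun k _ => ?_
        ring
      · rw [indic_apply_of_notMem hχ, zero_mul]
        refine Finset.sum_eq_zero fun k _ => ?_
        rw [hd0 χ hχ k]
        simp
    rw [h1, h3]
    by_cases hx : p ∣ orderOf x
    · have h4 : ¬ p ∣ orderOf (1 : G) := by
        rw [orderOf_one]
        exact fun h => hpp.one_lt.ne' (Nat.dvd_one.mp h)
      have h5 := weak_block_orthogonality hM hB h4 (y := x⁻¹) (by rwa [orderOf_inv])
      rw [finsum_mem_eq_sum_indic] at h5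
      have h6 : ∑ χ : IrrCharacter G, indic B χ * ((charDegree (χ : G → ℂ) : ℂ) * (χ : G → ℂ) x) = 0 := by
        rw [← h5]
        refine Finset.sum_congr rfl fun χ _ => ?_
        rw [apply_one_eq_charDegree (hχc χ), irr_apply_inv, Complex.conj_conj]
      rw [h6]
      refine Finset.sum_eq_zero fun χ _ => ?_
      rw [pRegularPart_of_sing _ hx]
      simp
    · refine Finset.sum_congr rfl fun χ _ => ?_
      rw [pRegularPart_of_reg _ hx]
  -- pairing with the character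
  have hmain : ∑ ξ : IrrCharacter G, (z ξ : ℂ) * ((charDegree (ξ : G → ℂ) : ℂ) * c ξ) = (m₀ : ℂ) * (charDegree (χ₀ : G → ℂ) : ℂ) := by
    have h1 : ((p ^ A : ℕ) : ℂ) * ∑ ξ : IrrCharacter G, (z ξ : ℂ) * ((charDegree (ξ : G → ℂ) : ℂ) * c ξ) =
        ∑ x, (((p ^ A : ℕ) : ℂ) * ∑ ξ : IrrCharacter G, (z ξ : ℂ) * pRegularPart p (ξ : G → ℂ) x) * conj ((χ₀ : G → ℂ) x) := by
      simp only [← hT, Finset.mul_sum, Finset.sum_mul]
      rw [Finset.sum_comm]
      refine Finset.sum_congr rfl fun x _ => Finset.sum_congr rfl fun ξ _ => ?_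
      ring
    have h2 : ∑ x, (∑ χ : IrrCharacter G, indic B χ * ((charDegree (χ : G → ℂ) : ℂ) * (χ : G → ℂ) x)) * conj ((χ₀ : G → ℂ) x) =
        (Nat.card G : ℂ) * (charDegree (χ₀ : G → ℂ) : ℂ) := by
      simp only [Finset.sum_mul]
      rw [Finset.sum_comm, Finset.sum_eq_single χ₀]
      · simp only [indic_apply_of_mem hχ₀, one_mul]
        have h3 : ∑ x, (charDegree (χ₀ : G → ℂ) : ℂ) * (χ₀ : G → ℂ) x * conj ((χ₀ : G → ℂ) x) =
            (charDegree (χ₀ : G → ℂ) : ℂ) * ∑ x, (χ₀ : G → ℂ) x * conj ((χ₀ : G → ℂ) x) := by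
          rw [Finset.mul_sum]
          refine Finset.sum_congr rfl fun x _ => ?_
          ring
        have h4 := classInner_irr_self χ₀.2
        rw [classInner] at h4
        have h5 : ∑ x, (χ₀ : G → ℂ) x * conj ((χ₀ : G → ℂ) x) = (Nat.card G : ℂ) := by
          field_simp at h4
          exact h4
        simp only [mul_assoc]
        rw [← Finset.mul_sum, h5]
        ring
      · intro χ _ hχ
        have h4 := classInner_irr_of_ne χ.2 χ₀.2 (fun h => hχ (Subtype.ext h))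
        rw [classInner] at h4
        have h5 : ∑ x, (χ : G → ℂ) x * conj ((χ₀ : G → ℂ) x) = 0 :=
          (mul_eq_zero.mp h4).resolve_left (inv_ne_zero hG)
        have h6 : ∀ x, indic B χ * ((charDegree (χ : G → ℂ) : ℂ) * (χ : G → ℂ) x) * conj ((χ₀ : G → ℂ) x) =
            (indic B χ * (charDegree (χ : G → ℂ) : ℂ)) * ((χ : G → ℂ) x * conj ((χ₀ : G → ℂ) x)) := by
          intro x
          ring
        rw [Finset.sum_congr rfl fun x _ => h6 x, ← Finset.mul_sum, h5, mul_zero]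
      · simp
    have h1' : ∑ x, (((p ^ A : ℕ) : ℂ) * ∑ ξ : IrrCharacter G, (z ξ : ℂ) * pRegularPart p (ξ : G → ℂ) x) * conj ((χ₀ : G → ℂ) x) =
        ∑ x, (∑ χ : IrrCharacter G, indic B χ * ((charDegree (χ : G → ℂ) : ℂ) * (χ : G → ℂ) x)) * conj ((χ₀ : G → ℂ) x) :=
      Finset.sum_congr rfl fun x _ => by rw [hρ x]
    rw [h1', h2] at h1
    have h3 : (Nat.card G : ℂ) = ((p ^ A : ℕ) : ℂ) * (m₀ : ℂ) := by exact_mod_cast hcard
    rw [h3] at h1
    apply mul_left_cancel₀ hpAne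
    rw [h1]
    ring
  -- cancel the power of `p`
  have hmain2 : ∑ ξ : IrrCharacter G, (z ξ : ℂ) * ((n ξ : ℂ) * c ξ) = (m₀ : ℂ) * (n₀ : ℂ) := by
    apply mul_left_cancel₀ hptC
    have h1 : ((p ^ t : ℕ) : ℂ) * ∑ ξ : IrrCharacter G, (z ξ : ℂ) * ((n ξ : ℂ) * c ξ) =
        ∑ ξ : IrrCharacter G, (z ξ : ℂ) * ((charDegree (ξ : G → ℂ) : ℂ) * c ξ) := by
      rw [Finset.mul_sum]
      refine Finset.sum_congr rfl fun ξ _ => ?_
      by_cases hξ : ξ ∈ B
      · rw [hn ξ hξ]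
        push_cast
        ring
      · rw [hz0 ξ hξ]
        simp
    rw [h1, hmain, hn₀]
    push_cast
    ring
  -- the congruence
  have hcong : MemLocalIdeal M ((m₀ : ℂ) * (n₀ : ℂ) - (W : ℂ) * c χ₀) := by
    have h1 : (W : ℂ) = ∑ ξ : IrrCharacter G, (z ξ : ℂ) * (n ξ : ℂ) := by
      have h2 := congrArg (fun y : ℤ => (y : ℂ)) hW
      simp only [Int.cast_sum, Int.cast_mul, Int.cast_natCast] at h2
      rw [← h2]
      simp only [z, Int.cast_sum, Int.cast_mul, Int.cast_natCast]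
    have h2 : (m₀ : ℂ) * (n₀ : ℂ) - (W : ℂ) * c χ₀ = ∑ ξ : IrrCharacter G, ((z ξ : ℂ) * (n ξ : ℂ)) * (c ξ - c χ₀) := by
      rw [← hmain2, h1, Finset.sum_mul, ← Finset.sum_sub_distrib]
      refine Finset.sum_congr rfl fun ξ _ => ?_
      ring
    rw [h2]
    refine MemLocalIdeal.sum _ fun ξ _ => ?_
    by_cases hξ : ξ ∈ B
    · exact MemLocalIdeal.mul_left (MemLocalRing.mul (by
        have h3 : ((z ξ : ℤ) : ℂ) = ((z ξ : ℤ) : ℂ) := rfl
        exact MemLocalRing.intCast _) (MemLocalRing.natCast _)) (zS_apply_congr hB hc hξ hχ₀)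
    · rw [hz0 ξ hξ]
      simpa using memLocalIdeal_zero
  have hWI : MemLocalIdeal M (W : ℂ) := (natCast_memLocalIdeal_iff hM W).mpr hV
  have hWc : MemLocalIdeal M ((W : ℂ) * c χ₀) := by
    rw [mul_comm]
    exact MemLocalIdeal.mul_left (zS_apply_mem hc χ₀) hWI
  have h3 : MemLocalIdeal M (((m₀ * n₀ : ℕ) : ℂ)) := by
    have h4 : ((m₀ * n₀ : ℕ) : ℂ) = ((m₀ : ℂ) * (n₀ : ℂ) - (W : ℂ) * c χ₀) + (W : ℂ) * c χ₀ := by
      push_cast
      ring
    rw [h4]
    exact MemLocalIdeal.add hcong hWc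
  have h4 := (natCast_memLocalIdeal_iff hM _).mp h3
  rcases (Nat.Prime.dvd_mul hpp).mp h4 with h5 | h5
  · exact hm₀ h5
  · exact hn₀p h5


/-- **The sum of the squares of the degrees of a block.** -/
theorem degree_sum_structure {p : ℕ} [Fact p.Prime] (hM : IsPModular p M) {B : Set (IrrCharacter G)} (hB : IsPBlock M B)
    {D : Subgroup G} (hD : IsDefectGroup p M B D) (a d : ℕ) (ha : (Nat.card G).factorization p = a)
    (hd : Nat.card D = p ^ d) (g : ℕ) (hg1 : ∀ χ ∈ B, g ∣ charDegree (χ : G → ℂ))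
    (hg2 : ∀ g' : ℕ, (∀ χ ∈ B, g' ∣ charDegree (χ : G → ℂ)) → g' ∣ g) :
    g.factorization p = a - d ∧ ∃ v : ℕ, 0 < v ∧ ¬ p ∣ v ∧ blockRank p B ≤ v ∧
      ∑ᶠ χ ∈ B, charDegree (χ : G → ℂ) ^ 2 = p ^ (2 * a - d) * (g / p ^ (a - d)) ^ 2 * v := by
  classical
  have hpp : p.Prime := Fact.out
  have hBne : B.Nonempty := IsPBlock.nonempty hB
  have hdef : blockDefect p B = d := by
    have h1 := card_defectGroup hM hB hD
    rw [hd] at h1
    exact (Nat.pow_right_injective hpp.two_le h1).symm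
  have hmin : a = minVal p B + d := by
    rw [← ha, card_val_eq_minVal_add_defect (p := p) hBne, hdef]
  set t := a - d with ht
  have htmin : t = minVal p B := by omega
  have hdeg0 : ∀ χ : IrrCharacter G, charDegree (χ : G → ℂ) ≠ 0 := fun χ => (charDegree_pos χ.2).ne'
  have hdiv : ∀ χ ∈ B, p ^ t ∣ charDegree (χ : G → ℂ) := by
    intro χ hχ
    rw [hpp.pow_dvd_iff_le_factorization (hdeg0 χ), htmin]
    exact minVal_le hχ
  obtain ⟨χ₀, hχ₀, hh⟩ := exists_height_zero (p := p) hBne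
  have hval₀ : (charDegree (χ₀ : G → ℂ)).factorization p = t := by
    rw [val_eq_minVal_add_height hχ₀, hh, htmin, add_zero]
  have hgt : p ^ t ∣ g := hg2 _ hdiv
  have hg0 : g ≠ 0 := by
    intro h
    have h1 := hg1 χ₀ hχ₀
    rw [h, zero_dvd_iff] at h1
    exact hdeg0 χ₀ h1
  have hgval : g.factorization p = t := by
    apply le_antisymm
    · rw [← hval₀]
      exact (Nat.factorization_le_iff_dvd hg0 (hdeg0 χ₀)).mpr (hg1 χ₀ hχ₀) p
    · exact (hpp.pow_dvd_iff_le_factorization hg0).mp hgt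
  refine ⟨hgval, ?_⟩
  obtain ⟨u, hu⟩ := hgt
  have hpt : 0 < p ^ t := pow_pos hpp.pos t
  have hu0 : u ≠ 0 := by
    intro h
    rw [h, mul_zero] at hu
    exact hg0 hu
  have hgu : g / p ^ t = u := by
    rw [hu]
    exact Nat.mul_div_cancel_left _ hpt
  rw [hgu]
  have hpu : ¬ p ∣ u := by
    intro h
    obtain ⟨w, hw⟩ := h
    have h1 : p ^ (t + 1) ∣ g := ⟨w, by rw [hu, hw]; ring⟩
    have h2 := (hpp.pow_dvd_iff_le_factorization hg0).mp h1
    omega
  obtain ⟨K, _, _, m, dd, aa, hm, hdeg, hd0, ha0, hdelta, hpos, hpdvd, hreg⟩ := exists_block_frame hM hB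
  -- the card
  have hGne : Nat.card G ≠ 0 := Nat.card_pos.ne'
  obtain ⟨m₀, hm₀⟩ : p ^ a ∣ Nat.card G := by
    rw [← ha]
    exact Nat.ordProj_dvd _ _
  have hm₀p : ¬ p ∣ m₀ := by
    intro h
    obtain ⟨w, hw⟩ := h
    have h1 : p ^ (a + 1) ∣ Nat.card G := ⟨w, by rw [hm₀, hw]; ring⟩
    have h2 := (hpp.pow_dvd_iff_le_factorization hGne).mp h1
    omega
  -- the degrees of the projectives
  have hgΦ : ∀ k, g ∣ ∑ χ : IrrCharacter G, dd χ k * charDegree (χ : G → ℂ) := by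
    intro k
    refine Finset.dvd_sum fun χ _ => ?_
    by_cases hχ : χ ∈ B
    · exact Dvd.dvd.mul_left (hg1 χ hχ) _
    · rw [hd0 χ hχ k, zero_mul]
      exact dvd_zero _
  have hpaΦ := hpdvd a ⟨m₀, hm₀⟩
  have hcop : Nat.Coprime (p ^ a) u := Nat.Coprime.pow_left _ ((Nat.Prime.coprime_iff_not_dvd hpp).mpr hpu)
  have huΦ : ∀ k, p ^ a * u ∣ ∑ χ : IrrCharacter G, dd χ k * charDegree (χ : G → ℂ) := by
    intro k
    refine Nat.Coprime.mul_dvd_of_dvd_of_dvd hcop (hpaΦ k) ?_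
    exact (Dvd.intro_left _ hu.symm).trans (hgΦ k)
  choose φ hφ using huΦ
  have hφpos : ∀ k, 0 < φ k := by
    intro k
    apply Nat.pos_of_ne_zero
    intro h
    have h1 := hpos k
    rw [hφ k, h, mul_zero] at h1
    omega
  -- the degrees of the simple modules
  have hmeq : ∀ k, (m k : ℤ) = ∑ χ, aa k χ * (charDegree (χ : G → ℂ) : ℤ) := by
    intro k
    have h1 : ∀ χ, aa k χ * (charDegree (χ : G → ℂ) : ℤ) = ∑ j, (m j : ℤ) * (aa k χ * (dd χ j : ℤ)) := by
      intro χ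
      by_cases hχ : χ ∈ B
      · rw [hdeg χ hχ]
        push_cast
        rw [Finset.mul_sum]
        refine Finset.sum_congr rfl fun j _ => ?_
        ring
      · rw [ha0 k χ hχ]
        simp
    rw [Finset.sum_congr rfl fun χ _ => h1 χ, Finset.sum_comm, Finset.sum_congr rfl fun j _ => (Finset.mul_sum _ _ _).symm,
      Finset.sum_eq_single k]
    · rw [hdelta, if_pos rfl, mul_one]
    · intro j _ hj
      rw [hdelta, if_neg (Ne.symm hj), mul_zero]
    · simp
  have hgm : ∀ k, g ∣ m k := by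
    intro k
    have h1 : (g : ℤ) ∣ (m k : ℤ) := by
      rw [hmeq k]
      refine Finset.dvd_sum fun χ _ => ?_
      by_cases hχ : χ ∈ B
      · exact Dvd.dvd.mul_left (by exact_mod_cast hg1 χ hχ) _
      · rw [ha0 k χ hχ, zero_mul]
        exact dvd_zero _
    exact_mod_cast h1
  choose m' hm' using hgm
  have hm'pos : ∀ k, 0 < m' k := by
    intro k
    apply Nat.pos_of_ne_zero
    intro h
    have h1 := hm k
    rw [hm' k, h, mul_zero] at h1
    omega
  -- the total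
  set V := ∑ k, m' k * φ k with hV
  have hS : ∑ᶠ χ ∈ B, charDegree (χ : G → ℂ) ^ 2 = ∑ k, m k * ∑ χ : IrrCharacter G, dd χ k * charDegree (χ : G → ℂ) := by
    have h1 : ∑ᶠ χ ∈ B, charDegree (χ : G → ℂ) ^ 2 = ∑ χ : IrrCharacter G, if χ ∈ B then charDegree (χ : G → ℂ) ^ 2 else 0 := by
      rw [finsum_mem_def, finsum_eq_sum_of_fintype]
      refine Finset.sum_congr rfl fun χ _ => ?_
      simp [Set.indicator_apply]
    rw [h1]
    simp only [Finset.mul_sum]
    rw [Finset.sum_comm]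
    refine Finset.sum_congr rfl fun χ _ => ?_
    by_cases hχ : χ ∈ B
    · rw [if_pos hχ, sq]
      conv_lhs => rw [hdeg χ hχ]
      conv_rhs => rw [show (∑ k, m k * (dd χ k * charDegree (χ : G → ℂ))) = (∑ k, m k * dd χ k) * charDegree (χ : G → ℂ) by
        rw [Finset.sum_mul]
        exact Finset.sum_congr rfl fun k _ => by ring]
      rw [← hdeg χ hχ]
    · rw [if_neg hχ]
      symm
      refine Finset.sum_eq_zero fun k _ => ?_
      rw [hd0 χ hχ k]
      simp
  have hSV : ∑ k, m k * ∑ χ : IrrCharacter G, dd χ k * charDegree (χ : G → ℂ) = p ^ (2 * a - d) * u ^ 2 * V := by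
    have hexp : 2 * a - d = t + a := by omega
    rw [hexp, hV, Finset.mul_sum]
    refine Finset.sum_congr rfl fun k _ => ?_
    rw [hφ k, hm' k, hu, pow_add]
    ring
  refine ⟨V, ?_, ?_, ?_, hS.trans hSV⟩
  · apply Nat.pos_of_ne_zero
    intro h
    have h1 : ∑ᶠ χ ∈ B, charDegree (χ : G → ℂ) ^ 2 = 0 := by
      rw [hS, hSV, h, mul_zero]
    obtain ⟨χ₁, hχ₁⟩ := hBne
    have h2 : ∑ᶠ χ ∈ B, charDegree (χ : G → ℂ) ^ 2 = ∑ χ : IrrCharacter G, if χ ∈ B then charDegree (χ : G → ℂ) ^ 2 else 0 := by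
      rw [finsum_mem_def, finsum_eq_sum_of_fintype]
      refine Finset.sum_congr rfl fun χ _ => ?_
      simp [Set.indicator_apply]
    rw [h2] at h1
    have h3 := (Finset.sum_eq_zero_iff.mp h1) χ₁ (Finset.mem_univ _)
    rw [if_pos hχ₁] at h3
    exact hdeg0 χ₁ (by simpa using h3)
  · -- not divisible by `p`
    intro hVp
    let n : IrrCharacter G → ℕ := fun ξ => charDegree (ξ : G → ℂ) / p ^ t
    have hn : ∀ ξ ∈ B, charDegree (ξ : G → ℂ) = p ^ t * n ξ := by
      intro ξ hξ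
      exact (Nat.mul_div_cancel' (hdiv ξ hξ)).symm
    have hn₀p : ¬ p ∣ n χ₀ := by
      intro h
      obtain ⟨w, hw⟩ := h
      have h1 : p ^ (t + 1) ∣ charDegree (χ₀ : G → ℂ) := ⟨w, by rw [hn χ₀ hχ₀, hw]; ring⟩
      have h2 := (hpp.pow_dvd_iff_le_factorization (hdeg0 χ₀)).mp h1
      omega
    have hf : ∀ k, ∑ χ : IrrCharacter G, dd χ k * charDegree (χ : G → ℂ) = p ^ a * (u * φ k) := by
      intro k
      rw [hφ k]
      ring
    have hamn : ∀ k, ∑ ξ : IrrCharacter G, aa k ξ * (n ξ : ℤ) = (u : ℤ) * (m' k : ℤ) := by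
      intro k
      have hptZ : ((p ^ t : ℕ) : ℤ) ≠ 0 := by exact_mod_cast hpt.ne'
      apply mul_left_cancel₀ hptZ
      have h1 := hmeq k
      rw [hm' k, hu] at h1
      push_cast at h1 ⊢
      rw [Finset.mul_sum]
      have h2 : ∑ χ, (p : ℤ) ^ t * (aa k χ * (n χ : ℤ)) = ∑ χ, aa k χ * (charDegree (χ : G → ℂ) : ℤ) := by
        refine Finset.sum_congr rfl fun ξ _ => ?_
        by_cases hξ : ξ ∈ B
        · rw [hn ξ hξ]
          push_cast
          ring
        · rw [ha0 k ξ hξ]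
          simp
      rw [h2, ← h1]
      ring
    have hW : ∑ ξ : IrrCharacter G, (∑ k, ((u * φ k : ℕ) : ℤ) * aa k ξ) * (n ξ : ℤ) = ((u ^ 2 * V : ℕ) : ℤ) := by
      simp only [Finset.sum_mul]
      rw [Finset.sum_comm]
      have h1 : ∀ k, ∑ ξ : IrrCharacter G, ((u * φ k : ℕ) : ℤ) * aa k ξ * (n ξ : ℤ) = ((u * φ k : ℕ) : ℤ) * ((u : ℤ) * (m' k : ℤ)) := by
        intro k
        rw [← hamn k, Finset.mul_sum]
        refine Finset.sum_congr rfl fun ξ _ => ?_
        ring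
      rw [Finset.sum_congr rfl fun k _ => h1 k, hV]
      push_cast
      rw [Finset.mul_sum]
      refine Finset.sum_congr rfl fun k _ => ?_
      ring
    have hcore := not_dvd_core hM hB dd aa hd0 ha0 hreg (A := a) (t := t) (n₀ := n χ₀) (m₀ := m₀) hm₀ hm₀p hpt hχ₀ (hn χ₀ hχ₀) hn₀p n
      hn (fun k => u * φ k) hf (u ^ 2 * V) hW
    exact hcore (Dvd.dvd.mul_left hVp _)
  · -- the rank
    have hcardV : Fintype.card K ≤ V := by
      rw [hV, ← Finset.card_univ, Finset.card_eq_sum_ones]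
      exact Finset.sum_le_sum fun k _ => Nat.mul_pos (hm'pos k) (hφpos k)
    refine le_trans ?_ hcardV
    rw [blockRank]
    let β : K → G → ℂ := fun k => ∑ ξ : IrrCharacter G, (aa k ξ : ℂ) • pRegularPart p (ξ : G → ℂ)
    have hle : Submodule.span ℂ ((fun χ : IrrCharacter G => pRegularPart p (χ : G → ℂ)) '' B) ≤ Submodule.span ℂ (Set.range β) := by
      rw [Submodule.span_le]
      rintro _ ⟨χ, hχ, rfl⟩
      show pRegularPart p (χ : G → ℂ) ∈ _
      rw [hreg χ hχ]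
      exact Submodule.sum_mem _ fun k _ => Submodule.smul_mem _ _ (Submodule.subset_span ⟨k, rfl⟩)
    exact (Submodule.finrank_mono hle).trans (finrank_range_le_card (R := ℂ) β)

end Frame

end Cfsg.Agent.Lib.LocalAlg
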