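import Cfsg.Agent.Lib.LocalAlg.DegSum2
import Cfsg.Agent.Lib.Lead.BS.SecOrth

/-!
# Contribution of a section to the number of `p`-rational characters

For a `p`-element `u` and an automorphism `τ` of `C = C_G(u)`, the sum over the regular `y ∈ C`
of `∑_{χ ∈ B} χ(u τ(y)) conj χ(u y)` is `|C|` times a natural number.
-/

set_option autoImplicit false
set_option linter.unusedSectionVars false
set_option linter.unusedVariables false

namespace Cfsg.Agent.Lib.LocalAlg

open Cfsg Cfsg.Agent.Lib.Char Cfsg.Agent.Lib.Blocks Cfsg.Agent.Lib.H8Group Finset Module MonoidAlgebra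
open scoped ComplexConjugate

universe u

section Frame

variable {M : Ideal AlgInt} [hMp : M.IsPrime] {X : Type u} [Group X] [Fintype X]

theorem chiL_mapDomain (χ : X → ℂ) (τ : X ≃* X) (x : MonoidAlgebra (locRing M) X) :
    chiL χ (MonoidAlgebra.mapDomainRingHom (locRing M) τ.toMonoidHom x) = chiL (fun y => χ (τ y)) x := by
  classical
  conv_lhs => rw [o_eq_sum_single x]
  conv_rhs => rw [o_eq_sum_single x]
  rw [map_sum, chiL_sum, chiL_sum]
  refine Finset.sum_congr rfl fun g _ => ?_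
  have h1 : MonoidAlgebra.mapDomainRingHom (locRing M) τ.toMonoidHom (single g (x.coeff g)) = single (τ g) (x.coeff g) := by
    simp [MonoidAlgebra.mapDomain_single]
  rw [h1, chiL_single, chiL_single]

/-- The irreducible characters permuted by an automorphism. -/
noncomputable def irrAut (τ : X ≃* X) : IrrCharacter X ≃ IrrCharacter X where
  toFun ψ := ⟨(ψ : X → ℂ) ∘ τ, IsIrrCharacter.comp_mulEquiv ψ.2 τ⟩
  invFun ψ := ⟨(ψ : X → ℂ) ∘ τ.symm, IsIrrCharacter.comp_mulEquiv ψ.2 τ.symm⟩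
  left_inv ψ := by
    apply Subtype.ext
    funext y
    simp
  right_inv ψ := by
    apply Subtype.ext
    funext y
    simp

namespace OFrame

variable (𝓕 : OFrame M X)

/-- **Composition with an automorphism.** -/
theorem exists_Phi_comp (τ : X ≃* X) (k : Fin 𝓕.l) : ∃ a : Fin 𝓕.l → ℕ, ∀ y, 𝓕.Phi k (τ y) = ∑ j, (a j : ℂ) * 𝓕.Phi j y := by
  classical
  let ι := MonoidAlgebra.mapDomainRingHom (locRing M) τ.symm.toMonoidHom
  let w := ι (𝓕.P k)
  have hw : w * w = w := by
    have h0 : 𝓕.P k * 𝓕.P k = 𝓕.P k := 𝓕.idem _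
    simp only [w]
    rw [← map_mul, h0]
  refine ⟨𝓕.a w, fun y => ?_⟩
  have h1 : ∀ ψ : IrrCharacter X, chiL ((irrAut τ).symm ψ : X → ℂ) (𝓕.P k) = ∑ j, (𝓕.a w j : ℂ) * chiL (ψ : X → ℂ) (𝓕.P j) := by
    intro ψ
    rw [← 𝓕.chiL_eq_sum (IsIrrCharacter.isCharacter ψ.2) hw]
    simp only [w, ι]
    rw [chiL_mapDomain]
    rfl
  simp only [Phi]
  rw [← Equiv.sum_comp (irrAut τ).symm]
  have h2 : ∀ ψ : IrrCharacter X, chiL ((irrAut τ).symm ψ : X → ℂ) (𝓕.P k) * ((irrAut τ).symm ψ : X → ℂ) (τ y) =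
      (∑ j, (𝓕.a w j : ℂ) * chiL (ψ : X → ℂ) (𝓕.P j)) * (ψ : X → ℂ) y := by
    intro ψ
    rw [h1]
    congr 1
    show (ψ : X → ℂ) (τ.symm (τ y)) = _
    simp
  rw [Finset.sum_congr rfl fun ψ _ => h2 ψ]
  simp only [Finset.sum_mul, Finset.mul_sum]
  rw [Finset.sum_comm]
  refine Finset.sum_congr rfl fun j _ => Finset.sum_congr rfl fun ψ _ => ?_
  ring

theorem classInner_pReg_Phi {p : ℕ} (hM : IsPModular p M) (ϑ : X → ℂ) (j : Fin 𝓕.l) :
    classInner (pRegularPart p ϑ) (𝓕.Phi j) = classInner ϑ (𝓕.Phi j) := by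
  classical
  simp only [classInner]
  congr 1
  refine Finset.sum_congr rfl fun g _ => ?_
  by_cases hg : p ∣ orderOf g
  · rw [𝓕.Phi_vanish hM j hg]
    simp
  · rw [pRegularPart_of_reg _ hg]

/-- The Brauer characters, dual to the projective characters. -/
noncomputable def betaF (p : ℕ) (A : Fin 𝓕.l → IrrCharacter X → ℤ) (k : Fin 𝓕.l) : X → ℂ :=
  ∑ ψ : IrrCharacter X, (A k ψ : ℂ) • pRegularPart p (ψ : X → ℂ)

theorem classInner_beta_Phi {p : ℕ} (hM : IsPModular p M) {A : Fin 𝓕.l → IrrCharacter X → ℤ}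
    (hA : ∀ k j, ∑ χ, A k χ * (𝓕.Dn χ j : ℤ) = if k = j then 1 else 0) (k j : Fin 𝓕.l) :
    classInner (𝓕.betaF p A k) (𝓕.Phi j) = if k = j then 1 else 0 := by
  classical
  rw [betaF, classInner_sum_left]
  simp only [classInner_smul_left, classInner_pReg_Phi 𝓕 hM, classInner_irr_Phi]
  have h1 := congrArg (fun z : ℤ => (z : ℂ)) (hA k j)
  simp only [Int.cast_sum, Int.cast_mul, Int.cast_natCast] at h1
  rw [h1]
  split_ifs <;> simp

theorem betaF_mem {p : ℕ} (A : Fin 𝓕.l → IrrCharacter X → ℤ) (k : Fin 𝓕.l) : 𝓕.betaF p A k ∈ regSub p X := by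
  exact Submodule.sum_mem _ fun ψ _ => Submodule.smul_mem _ _ (pRegularPart_mem (irr_isClassFunction ψ))

/-- Expansion of a function on the regular classes in the dual basis. -/
theorem expand_regSub {p : ℕ} (hM : IsPModular p M) {A : Fin 𝓕.l → IrrCharacter X → ℤ}
    (hA : ∀ k j, ∑ χ, A k χ * (𝓕.Dn χ j : ℤ) = if k = j then 1 else 0) {f : X → ℂ} (hf : f ∈ regSub p X) :
    f = ∑ k, classInner f (𝓕.Phi k) • 𝓕.betaF p A k := by
  classical
  rw [← sub_eq_zero]
  apply 𝓕.eq_zero_of_orth hM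
  · exact Submodule.sub_mem _ hf (Submodule.sum_mem _ fun k _ => Submodule.smul_mem _ _ (𝓕.betaF_mem A k))
  · intro j
    have hsub : ∀ x y : X → ℂ, classInner (x - y) (𝓕.Phi j) = classInner x (𝓕.Phi j) - classInner y (𝓕.Phi j) := by
      intro x y
      simp only [classInner, Pi.sub_apply, sub_mul, Finset.sum_sub_distrib, mul_sub]
    rw [hsub, classInner_sum_left]
    simp only [classInner_smul_left, 𝓕.classInner_beta_Phi hM hA]
    rw [Finset.sum_eq_single j]
    · simp
    · intro k _ hk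
      simp [hk]
    · simp

/-- Constituents of a projective character lie in one block. -/
theorem Dn_block {p : ℕ} (hM : IsPModular p M) {ψ₀ ψ : IrrCharacter X} {k : Fin 𝓕.l} (h0 : 𝓕.Dn ψ₀ k ≠ 0)
    (h : 𝓕.Dn ψ k ≠ 0) : ψ ∈ blockOf M (ψ₀ : X → ℂ) := by
  classical
  obtain ⟨Kb, h1, h2⟩ := 𝓕.exists_blockPart hM (isPBlock_blockOf (M := M) ψ₀)
  have hk : Kb k := by
    by_contra hk
    exact h0 (h2 ψ₀ (self_mem_blockOf ψ₀) k hk)
  by_contra hψ
  exact h (h1 ψ hψ k hk)

end OFrame

end Frame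


section Term

variable {G : Type u} [Group G] [Fintype G] {M : Ideal AlgInt} {p : ℕ} [hp : Fact p.Prime]

open Cfsg.Agent.Lib.Lead.BS

theorem irr_comm_of_centralizer {u : G} (c : Subgroup.centralizer ({u} : Set G)) : (c : G) * u = u * c :=
  commute_of_mem_centralizer_singleton c.2

/-- Conjugacy in a section. -/
theorem isConj_section_iff {α : ℕ} (hα : IsPExp p G α) {u : G} (hu : ∃ k, orderOf u = p ^ k)
    {z c : Subgroup.centralizer ({u} : Set G)} (hz : ¬ p ∣ orderOf z) (hc : ¬ p ∣ orderOf c) :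
    IsConj (u * (z : G)) (u * (c : G)) ↔ IsConj z c := by
  have hzG : ¬ p ∣ orderOf (z : G) := by rwa [Subgroup.orderOf_coe]
  have hcG : ¬ p ∣ orderOf (c : G) := by rwa [Subgroup.orderOf_coe]
  obtain ⟨k, hk⟩ := hu
  have hp1 : ∀ y : Subgroup.centralizer ({u} : Set G), ¬ p ∣ orderOf (y : G) → (u * (y : G)) ^ α = u := by
    intro y hy
    have h1 : Commute u (y : G) := (irr_comm_of_centralizer y).symm
    rw [h1.mul_pow, hα.pow_of_pPow hk, hα.pow_of_regular hy, mul_one]
  constructor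
  · intro h
    obtain ⟨x, hx⟩ := isConj_iff.mp h
    have h1 : x * u * x⁻¹ = u := by
      have h2 : (x * (u * (z : G)) * x⁻¹) ^ α = (u * (c : G)) ^ α := by rw [hx]
      rw [conj_pow, hp1 z hzG, hp1 c hcG] at h2
      exact h2
    have hxC : x ∈ Subgroup.centralizer ({u} : Set G) := by
      rw [Subgroup.mem_centralizer_singleton_iff]
      calc x * u = x * u * x⁻¹ * x := by group
        _ = u * x := by rw [h1]
    rw [isConj_iff]
    refine ⟨⟨x, hxC⟩, ?_⟩
    apply Subtype.ext
    show x * (z : G) * x⁻¹ = c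
    have h3 : x * (u * (z : G)) * x⁻¹ = (x * u * x⁻¹) * (x * (z : G) * x⁻¹) := by group
    rw [h3, h1] at hx
    exact mul_left_cancel hx
  · intro h
    obtain ⟨x, hx⟩ := isConj_iff.mp h
    rw [isConj_iff]
    refine ⟨x, ?_⟩
    rw [← hx]
    have h1 : (x : G) * u = u * x := irr_comm_of_centralizer x
    simp only [Subgroup.coe_mul, Subgroup.coe_inv]
    calc (x : G) * (u * (z : G)) * (x : G)⁻¹ = ((x : G) * u) * (z : G) * (x : G)⁻¹ := by group
      _ = (u * x) * (z : G) * (x : G)⁻¹ := by rw [h1]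
      _ = _ := by group

/-- The centralizer in a section. -/
theorem card_centralizer_section {α : ℕ} (hα : IsPExp p G α) {u : G} (hu : ∃ k, orderOf u = p ^ k)
    {z : Subgroup.centralizer ({u} : Set G)} (hz : ¬ p ∣ orderOf z) :
    Nat.card (Subgroup.centralizer ({u * (z : G)} : Set G)) = Nat.card (Subgroup.centralizer ({z} : Set (Subgroup.centralizer ({u} : Set G)))) := by
  have hzG : ¬ p ∣ orderOf (z : G) := by rwa [Subgroup.orderOf_coe]
  obtain ⟨k, hk⟩ := hu
  have hcomm : Commute u (z : G) := (irr_comm_of_centralizer z).symm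
  have hpow : (u * (z : G)) ^ α = u := by
    rw [hcomm.mul_pow, hα.pow_of_pPow hk, hα.pow_of_regular hzG, mul_one]
  have hgo : ∀ x ∈ Subgroup.centralizer ({u * (z : G)} : Set G), x * u = u * x ∧ x * (z : G) = (z : G) * x := by
    intro x hx
    have h1 : Commute x (u * (z : G)) := Subgroup.mem_centralizer_singleton_iff.mp hx
    have h2 : Commute x u := by
      have h3 := h1.pow_right α
      rwa [hpow] at h3
    refine ⟨h2, ?_⟩
    have h4 : x * (u * (z : G)) = (u * (z : G)) * x := h1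
    have h5 : x * u = u * x := h2
    have h6 : u * (x * (z : G)) = u * ((z : G) * x) := by
      calc u * (x * (z : G)) = (u * x) * (z : G) := by group
        _ = (x * u) * (z : G) := by rw [h5]
        _ = x * (u * (z : G)) := by group
        _ = (u * (z : G)) * x := h4
        _ = u * ((z : G) * x) := by group
    exact mul_left_cancel h6
  apply Nat.card_congr
  refine ⟨fun x => ⟨⟨x.1, Subgroup.mem_centralizer_singleton_iff.mpr (hgo x.1 x.2).1⟩,
      Subgroup.mem_centralizer_singleton_iff.mpr (Subtype.ext (hgo x.1 x.2).2)⟩,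
    fun y => ⟨y.1.1, ?_⟩, fun x => rfl, fun y => rfl⟩
  have h2 : (y.1.1 : G) * (z : G) = (z : G) * y.1.1 :=
    congrArg Subtype.val (Subgroup.mem_centralizer_singleton_iff.mp y.2)
  have h3 : (y.1.1 : G) * u = u * y.1.1 := Subgroup.mem_centralizer_singleton_iff.mp y.1.2
  rw [Subgroup.mem_centralizer_singleton_iff]
  calc (y.1.1 : G) * (u * (z : G)) = ((y.1.1 : G) * u) * (z : G) := by group
    _ = u * ((y.1.1 : G) * (z : G)) := by rw [h3]; group
    _ = u * ((z : G) * y.1.1) := by rw [h2]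
    _ = _ := by group

/-- The kernel identity: the projective characters and the section. -/
theorem sum_section_kernel {α : ℕ} (hα : IsPExp p G α) {u : G} (hu : ∃ k, orderOf u = p ^ k)
    [Fintype (Subgroup.centralizer ({u} : Set G))]
    {z c : Subgroup.centralizer ({u} : Set G)} (hz : ¬ p ∣ orderOf z) (hc : ¬ p ∣ orderOf c) :
    ∑ χ : IrrCharacter G, (χ : G → ℂ) (u * (z : G)) * conj ((χ : G → ℂ) (u * (c : G))) =
      ∑ ψ : IrrCharacter (Subgroup.centralizer ({u} : Set G)), (ψ : _ → ℂ) z * conj ((ψ : _ → ℂ) c) := by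
  classical
  rw [sum_irr_mul_conj, sum_irr_mul_conj]
  by_cases h : IsConj z c
  · rw [if_pos h, if_pos ((isConj_section_iff hα hu hz hc).mpr h), card_centralizer_section hα hu hz]
  · rw [if_neg h, if_neg (fun h' => h ((isConj_section_iff hα hu hz hc).mp h'))]

/-- **The contribution of a section.** -/
theorem section_term (hM : IsPModular p M) {B : Set (IrrCharacter G)} (hB : IsPBlock M B) {u : G}
    (hu : ∃ k, orderOf u = p ^ k) [Fintype (Subgroup.centralizer ({u} : Set G))]
    (τ : Subgroup.centralizer ({u} : Set G) ≃* Subgroup.centralizer ({u} : Set G)) :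
    ∃ n : ℕ, (∑ y : Subgroup.centralizer ({u} : Set G), if ¬ p ∣ orderOf y then
        ∑ χ : IrrCharacter G, indic B χ * ((χ : G → ℂ) (u * (τ y : G)) * conj ((χ : G → ℂ) (u * (y : G)))) else 0) =
      (Nat.card (Subgroup.centralizer ({u} : Set G)) : ℂ) * (n : ℂ) := by
  classical
  have := isPrime_of_modular hM
  obtain ⟨𝓕⟩ := exists_oFrame (M := M) (G := Subgroup.centralizer ({u} : Set G))
  obtain ⟨A, hA⟩ := 𝓕.exists_leftInv hM
  obtain ⟨α, hα⟩ := exists_isPExp G p
  have hCne : (Nat.card (Subgroup.centralizer ({u} : Set G)) : ℂ) ≠ 0 := card_ne_zero_complex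
  let ϑ : IrrCharacter G → Subgroup.centralizer ({u} : Set G) → ℂ := fun χ c => (χ : G → ℂ) (u * (c : G))
  have hϑcl : ∀ χ, IsClassFunction (Subgroup.centralizer ({u} : Set G)) (ϑ χ) := by
    intro χ g h
    simp only [ϑ, Subgroup.coe_mul, Subgroup.coe_inv]
    rw [← irr_isClassFunction χ (u * g) h]
    have h1 : (h : G) * u = u * h := irr_comm_of_centralizer h
    have h5 : u * ((h : G) * (g : G) * (h : G)⁻¹) = (h : G) * (u * g) * (h : G)⁻¹ := by
      calc u * ((h : G) * g * (h : G)⁻¹) = (u * h) * g * (h : G)⁻¹ := by group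
        _ = ((h : G) * u) * g * (h : G)⁻¹ := by rw [h1]
        _ = _ := by group
    rw [h5]
  let Dg : IrrCharacter G → Fin 𝓕.l → ℂ := fun χ k => classInner (ϑ χ) (𝓕.Phi k)
  -- the expansion on regular elements
  have hexp : ∀ χ (y : Subgroup.centralizer ({u} : Set G)), ¬ p ∣ orderOf y → ϑ χ y = ∑ k, Dg χ k * 𝓕.betaF p A k y := by
    intro χ y hy
    have h1 := 𝓕.expand_regSub hM hA (pRegularPart_mem (p := p) (hϑcl χ))
    have h2 := congrFun h1 y
    rw [pRegularPart_of_reg _ hy, Finset.sum_apply] at h2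
    rw [h2]
    refine Finset.sum_congr rfl fun k _ => ?_
    rw [Pi.smul_apply, smul_eq_mul, 𝓕.classInner_pReg_Phi hM]
  -- vanishing through the second main theorem
  have hvan : ∀ (χ : IrrCharacter G) (k : Fin 𝓕.l),
      (∀ ψ, 𝓕.Dn ψ k ≠ 0 → ¬ IsInducedBlock M (Subgroup.centralizer ({u} : Set G)) (blockOf M (ψ : Subgroup.centralizer ({u} : Set G) → ℂ)) (blockOf M (χ : G → ℂ))) → Dg χ k = 0 := by
    intro χ k hψ
    simp only [Dg, classInner]
    have h1 : ∑ c : Subgroup.centralizer ({u} : Set G), ϑ χ c * conj (𝓕.Phi k c) = ∑ ψ : IrrCharacter (Subgroup.centralizer ({u} : Set G)), (𝓕.Dn ψ k : ℂ) *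
        ∑ v : Subgroup.centralizer ({u} : Set G), (if ¬ p ∣ orderOf v then (χ : G → ℂ) (u * (v : G)) * conj ((ψ : Subgroup.centralizer ({u} : Set G) → ℂ) v) else 0) := by
      simp only [Finset.mul_sum]
      rw [Finset.sum_comm]
      refine Finset.sum_congr rfl fun c _ => ?_
      by_cases hc : p ∣ orderOf c
      · rw [𝓕.Phi_vanish hM k hc]
        simp [hc]
      · simp only [OFrame.Phi, OFrame.chiL_P, map_sum, map_mul, Complex.conj_natCast, Finset.mul_sum, if_pos hc]
        refine Finset.sum_congr rfl fun ψ _ => ?_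
        simp only [ϑ]
        ring
    rw [h1, Finset.sum_eq_zero, mul_zero]
    intro ψ _
    by_cases h0 : 𝓕.Dn ψ k = 0
    · rw [h0]
      simp
    · rw [section_orth hM hu (isPBlock_blockOf (M := M) χ) (self_mem_blockOf χ) (isPBlock_blockOf (M := M) ψ) (self_mem_blockOf ψ) (hψ ψ h0),
        mul_zero]
  -- which simple modules belong to the block
  let KB : Fin 𝓕.l → Prop := fun k => ∃ ψ, 𝓕.Dn ψ k ≠ 0 ∧ IsInducedBlock M (Subgroup.centralizer ({u} : Set G)) (blockOf M (ψ : Subgroup.centralizer ({u} : Set G) → ℂ)) B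
  have hvan1 : ∀ χ ∈ B, ∀ k, ¬ KB k → Dg χ k = 0 := by
    intro χ hχ k hk
    apply hvan
    intro ψ hψ hind
    apply hk
    refine ⟨ψ, hψ, ?_⟩
    rwa [← blockOf_eq_of_mem hB hχ] at hind
  have hvan2 : ∀ χ, χ ∉ B → ∀ k, KB k → Dg χ k = 0 := by
    intro χ hχ k hk
    obtain ⟨ψ₀, hψ₀, hind⟩ := hk
    apply hvan
    intro ψ hψ hind2
    have h1 : ψ ∈ blockOf M (ψ₀ : Subgroup.centralizer ({u} : Set G) → ℂ) := 𝓕.Dn_block hM hψ₀ hψ
    have h2 : blockOf M (ψ : Subgroup.centralizer ({u} : Set G) → ℂ) = blockOf M (ψ₀ : Subgroup.centralizer ({u} : Set G) → ℂ) := (blockOf_eq_of_mem (isPBlock_blockOf (M := M) ψ₀) h1).symm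
    rw [h2] at hind2
    have h3 := IsInducedBlock.unique _ hind hind2
    apply hχ
    rw [h3]
    exact self_mem_blockOf χ
  -- the value at the section
  have hE : ∀ k (z : Subgroup.centralizer ({u} : Set G)), ¬ p ∣ orderOf z → ∑ χ : IrrCharacter G, conj (Dg χ k) * (χ : G → ℂ) (u * (z : G)) = 𝓕.Phi k z := by
    intro k z hz
    have h1 : ∀ χ : IrrCharacter G, conj (Dg χ k) = (Nat.card (Subgroup.centralizer ({u} : Set G)) : ℂ)⁻¹ * ∑ c : Subgroup.centralizer ({u} : Set G), conj ((χ : G → ℂ) (u * (c : G))) * 𝓕.Phi k c := by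
      intro χ
      simp only [Dg, classInner, map_mul, map_sum, map_inv₀, Complex.conj_natCast, Complex.conj_conj]
      rfl
    have h2 := congrFun (classFunction_eq_sum (𝓕.Phi k) (𝓕.Phi_isClass k)) z
    rw [Finset.sum_apply] at h2
    have h3 : ∑ ψ : IrrCharacter (Subgroup.centralizer ({u} : Set G)), (classInner (𝓕.Phi k) (ψ : Subgroup.centralizer ({u} : Set G) → ℂ) • (ψ : Subgroup.centralizer ({u} : Set G) → ℂ)) z =
        (Nat.card (Subgroup.centralizer ({u} : Set G)) : ℂ)⁻¹ * ∑ c : Subgroup.centralizer ({u} : Set G), 𝓕.Phi k c * ∑ ψ : IrrCharacter (Subgroup.centralizer ({u} : Set G)), (ψ : Subgroup.centralizer ({u} : Set G) → ℂ) z * conj ((ψ : Subgroup.centralizer ({u} : Set G) → ℂ) c) := by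
      simp only [Pi.smul_apply, smul_eq_mul, classInner, Finset.mul_sum, Finset.sum_mul]
      rw [Finset.sum_comm]
      refine Finset.sum_congr rfl fun ψ _ => Finset.sum_congr rfl fun c _ => ?_
      ring
    rw [h2, h3]
    simp only [h1, Finset.sum_mul, Finset.mul_sum]
    rw [Finset.sum_comm]
    refine Finset.sum_congr rfl fun c _ => ?_
    by_cases hc : p ∣ orderOf c
    · rw [𝓕.Phi_vanish hM k hc]
      simp
    · have h4 := sum_section_kernel hα hu hz hc
      have h5 : ∑ x : IrrCharacter G, (Nat.card (Subgroup.centralizer ({u} : Set G)) : ℂ)⁻¹ * (conj ((x : G → ℂ) (u * (c : G))) * 𝓕.Phi k c) * (x : G → ℂ) (u * (z : G)) =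
          (Nat.card (Subgroup.centralizer ({u} : Set G)) : ℂ)⁻¹ * (𝓕.Phi k c * ∑ x : IrrCharacter G, (x : G → ℂ) (u * (z : G)) * conj ((x : G → ℂ) (u * (c : G)))) := by
        simp only [Finset.mul_sum]
        refine Finset.sum_congr rfl fun x _ => ?_
        ring
      rw [h5, h4]
      simp only [Finset.mul_sum]
  -- the action of `τ` on the projectives
  choose a ha using fun k => 𝓕.exists_Phi_comp τ k
  have hτreg : ∀ y : Subgroup.centralizer ({u} : Set G), ¬ p ∣ orderOf y → ¬ p ∣ orderOf (τ y) := by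
    intro y hy
    have h1 : orderOf (τ y) = orderOf y := MulEquiv.orderOf_eq τ y
    rwa [h1]
  -- the computation
  have hbetaS : ∀ k (y : Subgroup.centralizer ({u} : Set G)), p ∣ orderOf y → 𝓕.betaF p A k y = 0 := fun k y hy => (𝓕.betaF_mem A k).2 y hy
  have hterm : ∀ y : Subgroup.centralizer ({u} : Set G), (if ¬ p ∣ orderOf y then
        ∑ χ : IrrCharacter G, indic B χ * ((χ : G → ℂ) (u * (τ y : G)) * conj ((χ : G → ℂ) (u * (y : G)))) else 0) =
      ∑ k, (if KB k then 𝓕.Phi k (τ y) * conj (𝓕.betaF p A k y) else 0) := by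
    intro y
    by_cases hy : p ∣ orderOf y
    · rw [if_neg (not_not.mpr hy)]
      symm
      refine Finset.sum_eq_zero fun k _ => ?_
      rw [hbetaS k y hy]
      simp
    · rw [if_pos hy]
      have h1 : ∀ χ : IrrCharacter G, conj ((χ : G → ℂ) (u * (y : G))) = ∑ k, conj (Dg χ k) * conj (𝓕.betaF p A k y) := by
        intro χ
        have h2 := hexp χ y hy
        simp only [ϑ] at h2
        rw [h2, map_sum]
        simp only [map_mul]
      simp only [h1, Finset.mul_sum]
      rw [Finset.sum_comm]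
      refine Finset.sum_congr rfl fun k _ => ?_
      by_cases hk : KB k
      · rw [if_pos hk, ← hE k (τ y) (hτreg y hy), Finset.sum_mul]
        refine Finset.sum_congr rfl fun χ _ => ?_
        by_cases hχ : χ ∈ B
        · rw [indic_apply_of_mem hχ]
          ring
        · rw [indic_apply_of_notMem hχ]
          simp only [show Dg χ k = 0 from hvan2 χ hχ k hk]
          simp
      · rw [if_neg hk]
        refine Finset.sum_eq_zero fun χ _ => ?_
        by_cases hχ : χ ∈ B
        · simp only [show Dg χ k = 0 from hvan1 χ hχ k hk]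
          simp
        · rw [indic_apply_of_notMem hχ]
          simp
  refine ⟨∑ k, if KB k then a k k else 0, ?_⟩
  rw [Finset.sum_congr rfl fun y _ => hterm y, Finset.sum_comm]
  push_cast
  rw [Finset.mul_sum]
  refine Finset.sum_congr rfl fun k _ => ?_
  by_cases hk : KB k
  · simp only [if_pos hk]
    have h1 : ∑ y : Subgroup.centralizer ({u} : Set G), 𝓕.Phi k (τ y) * conj (𝓕.betaF p A k y) = ∑ j, (a k j : ℂ) * ∑ y : Subgroup.centralizer ({u} : Set G), 𝓕.Phi j y * conj (𝓕.betaF p A k y) := by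
      simp only [ha k, Finset.sum_mul, Finset.mul_sum]
      rw [Finset.sum_comm]
      refine Finset.sum_congr rfl fun j _ => Finset.sum_congr rfl fun y _ => ?_
      ring
    have h2 : ∀ j, ∑ y : Subgroup.centralizer ({u} : Set G), 𝓕.Phi j y * conj (𝓕.betaF p A k y) = (Nat.card (Subgroup.centralizer ({u} : Set G)) : ℂ) * (if k = j then 1 else 0) := by
      intro j
      have h3 := 𝓕.classInner_beta_Phi hM hA k j
      rw [classInner] at h3
      have h4 : conj (∑ y : Subgroup.centralizer ({u} : Set G), 𝓕.betaF p A k y * conj (𝓕.Phi j y)) = ∑ y : Subgroup.centralizer ({u} : Set G), 𝓕.Phi j y * conj (𝓕.betaF p A k y) := by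
        rw [map_sum]
        refine Finset.sum_congr rfl fun y _ => ?_
        rw [map_mul, Complex.conj_conj, mul_comm]
      rw [← h4]
      have h5 : ∑ y : Subgroup.centralizer ({u} : Set G), 𝓕.betaF p A k y * conj (𝓕.Phi j y) = (Nat.card (Subgroup.centralizer ({u} : Set G)) : ℂ) * (if k = j then 1 else 0) := by
        rw [← h3, ← mul_assoc, mul_inv_cancel₀ hCne, one_mul]
      rw [h5, map_mul, Complex.conj_natCast]
      split_ifs <;> simp
    rw [h1, Finset.sum_congr rfl fun j _ => by rw [h2 j], Finset.sum_eq_single k]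
    · simp
      ring
    · intro j _ hj
      simp [Ne.symm hj]
    · simp
  · simp only [if_neg hk]
    simp

end Term

end Cfsg.Agent.Lib.LocalAlg
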