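import Cfsg.Agent.Lib.LocalAlg.PRat

/-!
# The number of `p`-rational characters of a block is at least its rank
-/

set_option autoImplicit false
set_option linter.unusedSectionVars false
set_option linter.unusedVariables false

namespace Cfsg.Agent.Lib.LocalAlg

open Cfsg Cfsg.Agent.Lib.Char Cfsg.Agent.Lib.Blocks Cfsg.Agent.Lib.H8Group Finset Module MonoidAlgebra
open scoped ComplexConjugate

universe u

section Main

variable {G : Type u} [Group G] [Fintype G] {M : Ideal AlgInt} {p : ℕ} [hp : Fact p.Prime]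

/-- The regular section of a block gives its rank. -/
theorem regular_trace_ge (hM : IsPModular p M) {B : Set (IrrCharacter G)} (hB : IsPBlock M B) :
    ∃ n : ℕ, blockRank p B ≤ n ∧ (∑ g : G, if ¬ p ∣ orderOf g then
      ∑ χ : IrrCharacter G, indic B χ * ((χ : G → ℂ) g * conj ((χ : G → ℂ) g)) else 0) = (Nat.card G : ℂ) * (n : ℂ) := by
  classical
  have := isPrime_of_modular hM
  obtain ⟨𝓕⟩ := exists_oFrame (M := M) (G := G)
  obtain ⟨Kb, h0, h1⟩ := 𝓕.exists_blockPart hM hB
  obtain ⟨A, hA⟩ := 𝓕.exists_leftInv hM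
  have hexp : ∀ χ : IrrCharacter G, pRegularPart p (χ : G → ℂ) = ∑ k, (𝓕.Dn χ k : ℂ) • 𝓕.betaF p A k := by
    intro χ
    have h2 := 𝓕.expand_regSub hM hA (pRegularPart_mem (p := p) (irr_isClassFunction χ))
    rw [h2]
    refine Finset.sum_congr rfl fun k _ => ?_
    rw [𝓕.classInner_pReg_Phi hM, 𝓕.classInner_irr_Phi]
  refine ⟨Fintype.card {k // Kb k}, ?_, ?_⟩
  · rw [blockRank]
    let β : {k // Kb k} → G → ℂ := fun k => 𝓕.betaF p A k.1
    have hle : Submodule.span ℂ ((fun χ : IrrCharacter G => pRegularPart p (χ : G → ℂ)) '' B) ≤ Submodule.span ℂ (Set.range β) := by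
      rw [Submodule.span_le]
      rintro _ ⟨χ, hχ, rfl⟩
      show pRegularPart p (χ : G → ℂ) ∈ _
      rw [hexp χ]
      refine Submodule.sum_mem _ fun k _ => ?_
      by_cases hk : Kb k
      · exact Submodule.smul_mem _ _ (Submodule.subset_span ⟨⟨k, hk⟩, rfl⟩)
      · rw [h1 χ hχ k hk]
        simp
    exact (Submodule.finrank_mono hle).trans (finrank_range_le_card (R := ℂ) β)
  · have hG : (Nat.card G : ℂ) ≠ 0 := card_ne_zero_complex
    have h2 : ∀ χ : IrrCharacter G, (∑ g : G, if ¬ p ∣ orderOf g then (χ : G → ℂ) g * conj ((χ : G → ℂ) g) else 0) =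
        (Nat.card G : ℂ) * ∑ k, (𝓕.Dn χ k : ℂ) * classInner (𝓕.betaF p A k) (χ : G → ℂ) := by
      intro χ
      have h3 : classInner (pRegularPart p (χ : G → ℂ)) (χ : G → ℂ) = ∑ k, (𝓕.Dn χ k : ℂ) * classInner (𝓕.betaF p A k) (χ : G → ℂ) := by
        conv_lhs => rw [hexp χ]
        rw [classInner_sum_left]
        exact Finset.sum_congr rfl fun k _ => classInner_smul_left _ _ _
      rw [← h3, classInner, ← mul_assoc, mul_inv_cancel₀ hG, one_mul]
      refine Finset.sum_congr rfl fun g _ => ?_
      by_cases hg : p ∣ orderOf g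
      · rw [if_neg (not_not.mpr hg), pRegularPart_of_sing _ hg, zero_mul]
      · rw [if_pos hg, pRegularPart_of_reg _ hg]
    have h3 : (∑ g : G, if ¬ p ∣ orderOf g then
        ∑ χ : IrrCharacter G, indic B χ * ((χ : G → ℂ) g * conj ((χ : G → ℂ) g)) else 0) =
        ∑ χ : IrrCharacter G, indic B χ * ∑ g : G, if ¬ p ∣ orderOf g then (χ : G → ℂ) g * conj ((χ : G → ℂ) g) else 0 := by
      simp only [Finset.mul_sum]
      rw [Finset.sum_comm]
      refine Finset.sum_congr rfl fun g _ => ?_
      by_cases hg : p ∣ orderOf g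
      · simp [hg]
      · simp [hg]
    rw [h3, Finset.sum_congr rfl fun χ _ => by rw [h2 χ]]
    simp only [mul_left_comm (indic B _) (Nat.card G : ℂ)]
    rw [← Finset.mul_sum]
    congr 1
    simp only [Finset.mul_sum]
    rw [Finset.sum_comm]
    have h4 : ∀ k, ∑ χ : IrrCharacter G, indic B χ * ((𝓕.Dn χ k : ℂ) * classInner (𝓕.betaF p A k) (χ : G → ℂ)) = if Kb k then 1 else 0 := by
      intro k
      by_cases hk : Kb k
      · rw [if_pos hk]
        have h5 := 𝓕.classInner_beta_Phi hM hA k k
        rw [if_pos rfl, 𝓕.classInner_Phi] at h5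
        rw [← h5]
        refine Finset.sum_congr rfl fun χ _ => ?_
        by_cases hχ : χ ∈ B
        · rw [indic_apply_of_mem hχ, one_mul]
        · rw [h0 χ hχ k hk]
          simp
      · rw [if_neg hk]
        refine Finset.sum_eq_zero fun χ _ => ?_
        by_cases hχ : χ ∈ B
        · rw [h1 χ hχ k hk]
          simp
        · rw [indic_apply_of_notMem hχ, zero_mul]
    rw [Finset.sum_congr rfl fun k _ => h4 k, Finset.sum_boole, Fintype.card_subtype]

/-- The fibre of the `p`-part map. -/
theorem section_fiber {α : ℕ} (hα : IsPExp p G α) {u : G} (hu : ∃ k, orderOf u = p ^ k)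
    [Fintype (Subgroup.centralizer ({u} : Set G))] (F : G → ℂ) [DecidableEq G] :
    ∑ g ∈ Finset.univ.filter (fun g : G => g ^ α = u), F g =
      ∑ y : Subgroup.centralizer ({u} : Set G), if ¬ p ∣ orderOf y then F (u * (y : G)) else 0 := by
  classical
  obtain ⟨k, hk⟩ := hu
  rw [← Finset.sum_filter]
  symm
  refine Finset.sum_bij (fun y _ => u * (y : G)) ?_ ?_ ?_ ?_
  · intro y hy
    have hy' : ¬ p ∣ orderOf y := (Finset.mem_filter.mp hy).2
    have hyG : ¬ p ∣ orderOf (y : G) := by rwa [Subgroup.orderOf_coe]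
    have hcomm : Commute u (y : G) := (irr_comm_of_centralizer y).symm
    rw [Finset.mem_filter]
    refine ⟨Finset.mem_univ _, ?_⟩
    rw [hcomm.mul_pow, hα.pow_of_pPow hk, hα.pow_of_regular hyG, mul_one]
  · intro y₁ _ y₂ _ h
    exact Subtype.ext (mul_left_cancel h)
  · intro g hg
    have hgu : g ^ α = u := (Finset.mem_filter.mp hg).2
    have hcomm : Commute u g := by
      rw [← hgu]
      exact (Commute.refl g).pow_left α
    have hmem : u⁻¹ * g ∈ Subgroup.centralizer ({u} : Set G) := by
      rw [Subgroup.mem_centralizer_singleton_iff]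
      have h1 : g * u = u * g := hcomm.symm.eq
      calc u⁻¹ * g * u = u⁻¹ * (g * u) := by group
        _ = u⁻¹ * (u * g) := by rw [h1]
        _ = g := by group
        _ = u * (u⁻¹ * g) := by group
    have hreg : ¬ p ∣ orderOf (u⁻¹ * g) := by
      rw [← hα.pow_eq_one_iff]
      have h1 : Commute u⁻¹ g := hcomm.inv_left
      rw [h1.mul_pow, hgu, inv_pow, hα.pow_of_pPow hk, inv_mul_cancel]
    refine ⟨⟨u⁻¹ * g, hmem⟩, ?_, ?_⟩
    · rw [Finset.mem_filter]
      refine ⟨Finset.mem_univ _, ?_⟩
      rwa [← Subgroup.orderOf_coe]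
    · simp
  · intro y hy
    rfl

/-- The induced automorphism of the centralizer. -/
theorem exists_tau {u v : G} {k₀ : ℕ} (hv : v * u * v⁻¹ = u ^ k₀) [Fintype (Subgroup.centralizer ({u} : Set G))] :
    ∃ τ : Subgroup.centralizer ({u} : Set G) ≃* Subgroup.centralizer ({u} : Set G), ∀ y, ((τ y : Subgroup.centralizer ({u} : Set G)) : G) = v⁻¹ * y * v := by
  classical
  have hmem : ∀ y : Subgroup.centralizer ({u} : Set G), v⁻¹ * (y : G) * v ∈ Subgroup.centralizer ({u} : Set G) := by
    intro y
    rw [Subgroup.mem_centralizer_singleton_iff]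
    have h1 : Commute (y : G) u := commute_of_mem_centralizer_singleton y.2
    have h2 : Commute (y : G) (u ^ k₀) := h1.pow_right k₀
    rw [← hv] at h2
    have h3 : (y : G) * (v * u * v⁻¹) = (v * u * v⁻¹) * (y : G) := h2
    have h4 : v * (v⁻¹ * (y : G) * v * u) * v⁻¹ = v * (u * (v⁻¹ * (y : G) * v)) * v⁻¹ := by
      calc v * (v⁻¹ * (y : G) * v * u) * v⁻¹ = (y : G) * (v * u * v⁻¹) := by group
        _ = (v * u * v⁻¹) * (y : G) := h3
        _ = _ := by group
    have h5 := mul_right_cancel h4
    exact mul_left_cancel h5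
  let f : Subgroup.centralizer ({u} : Set G) →* Subgroup.centralizer ({u} : Set G) :=
    { toFun := fun y => ⟨v⁻¹ * (y : G) * v, hmem y⟩
      map_one' := by
        apply Subtype.ext
        simp
      map_mul' := by
        intro a b
        apply Subtype.ext
        simp only [Subgroup.coe_mul]
        group }
  have hinj : Function.Injective f := by
    intro a b h
    have h1 : v⁻¹ * (a : G) * v = v⁻¹ * (b : G) * v := congrArg Subtype.val h
    have h2 := mul_right_cancel h1
    exact Subtype.ext (mul_left_cancel h2)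
  have hbij : Function.Bijective f := Finite.injective_iff_bijective.mp hinj
  exact ⟨MulEquiv.ofBijective f hbij, fun y => rfl⟩

/-- **The main count.** -/
theorem rank_le_card_fixed (hM : IsPModular p M) {B : Set (IrrCharacter G)} (hB : IsPBlock M B) {k₀ : ℕ}
    (hk₀ : k₀.Coprime (Nat.card G)) (hk₁ : k₀ ≡ 1 [MOD Nat.card G / p ^ (Nat.card G).factorization p])
    [Fintype {χ : IrrCharacter G // χ ∈ B ∧ ∀ g : G, (χ : G → ℂ) (g ^ k₀) = (χ : G → ℂ) g}] :
    blockRank p B ≤ Fintype.card {χ : IrrCharacter G // χ ∈ B ∧ ∀ g : G, (χ : G → ℂ) (g ^ k₀) = (χ : G → ℂ) g} := by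
  classical
  have := isPrime_of_modular hM
  obtain ⟨α, hα⟩ := exists_isPExp G p
  have hpp : p.Prime := Fact.out
  have hGne : Nat.card G ≠ 0 := Nat.card_pos.ne'
  have hG : (Nat.card G : ℂ) ≠ 0 := card_ne_zero_complex
  -- regular elements are fixed by the power map
  have hregpow : ∀ y : G, ¬ p ∣ orderOf y → y ^ k₀ = y := by
    intro y hy
    have h1 : orderOf y ∣ Nat.card G / p ^ (Nat.card G).factorization p := by
      have h2 : orderOf y ∣ Nat.card G := orderOf_dvd_natCard y
      have h3 : Nat.Coprime (orderOf y) (p ^ (Nat.card G).factorization p) :=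
        Nat.Coprime.pow_right _ (Nat.Coprime.symm ((Nat.Prime.coprime_iff_not_dvd hpp).mpr hy))
      have h4 : Nat.card G = p ^ (Nat.card G).factorization p * (Nat.card G / p ^ (Nat.card G).factorization p) :=
        (Nat.mul_div_cancel' (Nat.ordProj_dvd _ _)).symm
      rw [h4] at h2
      exact (Nat.Coprime.dvd_of_dvd_mul_left h3 (by simpa using h2))
    have h5 : k₀ ≡ 1 [MOD orderOf y] := hk₁.of_dvd h1
    have h6 := pow_eq_pow_iff_modEq.mpr h5
    rwa [pow_one] at h6
  let F : G → ℂ := fun g => ∑ χ : IrrCharacter G, indic B χ * ((χ : G → ℂ) (g ^ k₀) * conj ((χ : G → ℂ) g))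
  -- the sum over the group is the number of fixed characters
  let σ : IrrCharacter G → IrrCharacter G := fun χ => ⟨fun g => (χ : G → ℂ) (g ^ k₀), isIrrCharacter_pow χ.2 hk₀⟩
  have hcount : (Nat.card G : ℂ) * (Fintype.card {χ : IrrCharacter G // χ ∈ B ∧ ∀ g : G, (χ : G → ℂ) (g ^ k₀) = (χ : G → ℂ) g} : ℂ) = ∑ g, F g := by
    have h1 : ∑ g, F g = ∑ χ : IrrCharacter G, indic B χ * ((Nat.card G : ℂ) * classInner (σ χ : G → ℂ) (χ : G → ℂ)) := by
      simp only [F]
      rw [Finset.sum_comm]
      refine Finset.sum_congr rfl fun χ _ => ?_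
      rw [classInner, ← mul_assoc (Nat.card G : ℂ), mul_inv_cancel₀ hG, one_mul, Finset.mul_sum]
    rw [h1, Fintype.card_subtype, Finset.card_filter, Nat.cast_sum, Finset.mul_sum]
    refine Finset.sum_congr rfl fun χ _ => ?_
    by_cases hχ : χ ∈ B
    · rw [indic_apply_of_mem hχ, one_mul]
      by_cases hf : ∀ g : G, (χ : G → ℂ) (g ^ k₀) = (χ : G → ℂ) g
      · have h2 : σ χ = χ := Subtype.ext (funext hf)
        rw [if_pos ⟨hχ, hf⟩, h2, classInner_irr_self χ.2]
        simp
      · have h2 : (σ χ : G → ℂ) ≠ (χ : G → ℂ) := fun h => hf (fun g => congrFun h g)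
        rw [if_neg (fun h => hf h.2), classInner_irr_of_ne (σ χ).2 χ.2 h2]
        simp
    · rw [indic_apply_of_notMem hχ, if_neg (fun h => hχ h.1)]
      simp
  -- the fibres
  have hfib : ∀ u : G, ∃ r : ℕ, ∑ g ∈ Finset.univ.filter (fun g : G => g ^ α = u), F g = (r : ℂ) := by
    intro u
    by_cases hu : ∃ k, orderOf u = p ^ k
    · letI : Fintype (Subgroup.centralizer ({u} : Set G)) := Fintype.ofFinite _
      rw [section_fiber hα hu F]
      by_cases hconj : IsConj u (u ^ k₀)
      · obtain ⟨v, hv⟩ := isConj_iff.mp hconj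
        obtain ⟨τ, hτ⟩ := exists_tau hv
        obtain ⟨n, hn⟩ := section_term hM hB hu τ
        refine ⟨Nat.card (Subgroup.centralizer ({u} : Set G)) * n, ?_⟩
        push_cast
        rw [← hn]
        refine Finset.sum_congr rfl fun y _ => ?_
        by_cases hy : p ∣ orderOf y
        · rw [if_neg (not_not.mpr hy), if_neg (not_not.mpr hy)]
        · rw [if_pos hy, if_pos hy]
          simp only [F]
          refine Finset.sum_congr rfl fun χ _ => ?_
          have hyG : ¬ p ∣ orderOf (y : G) := by rwa [Subgroup.orderOf_coe]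
          have hcomm : Commute u (y : G) := (irr_comm_of_centralizer y).symm
          rw [hcomm.mul_pow, hregpow _ hyG, ← hv, hτ y]
          have h3 := irr_isClassFunction χ (u * (v⁻¹ * (y : G) * v)) v
          have h4 : v * (u * (v⁻¹ * (y : G) * v)) * v⁻¹ = v * u * v⁻¹ * (y : G) := by group
          rw [h4] at h3
          rw [h3]
      · refine ⟨0, ?_⟩
        rw [Nat.cast_zero]
        refine Finset.sum_eq_zero fun y _ => ?_
        by_cases hy : p ∣ orderOf y
        · rw [if_neg (not_not.mpr hy)]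
        · rw [if_pos hy]
          have hyG : ¬ p ∣ orderOf (y : G) := by rwa [Subgroup.orderOf_coe]
          have hcomm : Commute u (y : G) := (irr_comm_of_centralizer y).symm
          obtain ⟨k, hk⟩ := hu
          have h1 : (u * (y : G)) ^ α = u := by
            rw [hcomm.mul_pow, hα.pow_of_pPow hk, hα.pow_of_regular hyG, mul_one]
          have h2 : ((u * (y : G)) ^ k₀) ^ α = u ^ k₀ := by
            rw [← pow_mul, mul_comm, pow_mul, h1]
          have h3 := sum_block_mul_finsum_eq_zero hM hα hB (g := (u * (y : G)) ^ k₀) (h := u * (y : G)) (by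
            rw [h1, h2]
            exact hconj)
          rw [finsum_mem_eq_sum_indic] at h3
          simp only [F]
          rw [← h3]
          refine Finset.sum_congr rfl fun χ _ => ?_
          rw [irr_apply_inv]
    · refine ⟨0, ?_⟩
      rw [Nat.cast_zero]
      apply Finset.sum_eq_zero
      intro g hg
      exfalso
      apply hu
      have hgu : g ^ α = u := (Finset.mem_filter.mp hg).2
      rw [← hgu]
      obtain ⟨y, -, -, hk, -⟩ := hα.isPPart g
      exact hk
  choose r hr using hfib
  -- the regular section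
  obtain ⟨n, hn, hnval⟩ := regular_trace_ge hM hB
  have hr1 : (r 1 : ℂ) = (Nat.card G : ℂ) * (n : ℂ) := by
    rw [← hr 1, ← hnval, ← Finset.sum_filter]
    have h1 : Finset.univ.filter (fun g : G => g ^ α = 1) = Finset.univ.filter (fun g : G => ¬ p ∣ orderOf g) := by
      ext g
      simp only [Finset.mem_filter, Finset.mem_univ, true_and]
      exact hα.pow_eq_one_iff
    rw [h1]
    refine Finset.sum_congr rfl fun g hg => ?_
    have hg' : ¬ p ∣ orderOf g := (Finset.mem_filter.mp hg).2
    simp only [F, hregpow g hg']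
  have hsum : ∑ g, F g = ∑ u, (r u : ℂ) := by
    rw [← Finset.sum_congr rfl fun u _ => hr u]
    exact (Finset.sum_fiberwise Finset.univ (fun g : G => g ^ α) F).symm
  have hnat : Nat.card G * Fintype.card {χ : IrrCharacter G // χ ∈ B ∧ ∀ g : G, (χ : G → ℂ) (g ^ k₀) = (χ : G → ℂ) g} = ∑ u, r u := by
    have h1 := hcount.trans hsum
    exact_mod_cast h1
  have hr1' : r 1 = Nat.card G * n := by exact_mod_cast hr1
  have hle : r 1 ≤ ∑ u, r u := Finset.single_le_sum (f := r) (fun _ _ => Nat.zero_le _) (Finset.mem_univ 1)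
  rw [hr1', ← hnat] at hle
  exact hn.trans (Nat.le_of_mul_le_mul_left hle (Nat.pos_of_ne_zero hGne))

end Main

end Cfsg.Agent.Lib.LocalAlg
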